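import Mathlib

/-!
`p`-subgroups of `GL₇(q)` for a prime `p` dividing `q⁶ - 1` and none of the other `qⁱ - 1`, `i ≤ 7`.
-/

set_option autoImplicit false

namespace Cfsg.Agent.H70.ReeMult

open Module

variable {K : Type*} [Field K] [Fintype K]

/-- A cyclic subgroup of order `q⁶ - 1`. -/
theorem exists_six_torus (c : ℕ) [Fact c.Prime] [CharP K c] :
    ∃ C : Subgroup (GL (Fin 7) K), IsCyclic C ∧ Nat.card C = Fintype.card K ^ 6 - 1 := by
  classical
  set L := FiniteField.Extension K c 6 with hL
  haveI : FiniteDimensional K L := Module.Finite.of_finite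
  have hfr : finrank K L = 6 := FiniteField.finrank_extension K c 6
  have h7 : finrank K (L × K) = 7 := by rw [finrank_prod, hfr, finrank_self]
  let b := Module.finBasisOfFinrankEq K (L × K) h7
  let f : L →* Module.End K (L × K) :=
    { toFun := fun x => (LinearMap.mulLeft K x).prodMap LinearMap.id
      map_one' := by ext <;> simp
      map_mul' := fun x y => by
        refine LinearMap.ext fun v => ?_
        show (x * y * v.1, v.2) = (x * (y * v.1), v.2)
        rw [mul_assoc] }
  let g : Lˣ →* GL (Fin 7) K := (Units.map (algEquivMatrix b).toMonoidHom).comp (Units.map f)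
  have hg : Function.Injective g := by
    intro x y e
    have e1 : f x = f y := (algEquivMatrix b).injective (congrArg Units.val e)
    have e2 := congrArg Prod.fst (LinearMap.congr_fun e1 (1, 0))
    refine Units.ext ?_
    simpa [f] using e2
  refine ⟨g.range, isCyclic_of_surjective g.rangeRestrict g.rangeRestrict_surjective, ?_⟩
  rw [← Nat.card_congr (g.ofInjective hg).toEquiv, Nat.card_units,
    Module.natCard_eq_pow_finrank (K := K) (V := L), hfr, Nat.card_eq_fintype_card]

/-- The Sylow subgroups are cyclic. -/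
theorem isCyclic_of_isPGroup_gl_seven (c : ℕ) [Fact c.Prime] [CharP K c] {p : ℕ} [hp : Fact p.Prime]
    (hpq : ¬ p ∣ Fintype.card K) (h : ∀ i ∈ ({1, 2, 3, 4, 5, 7} : Finset ℕ), ¬ p ∣ Fintype.card K ^ i - 1)
    (P : Subgroup (GL (Fin 7) K)) (hP : IsPGroup p P) : IsCyclic P := by
  classical
  obtain ⟨C, hC, hcard⟩ := exists_six_torus (K := K) c
  haveI := hC
  set q := Fintype.card K
  have hprime : Prime p := hp.out.prime
  have h2 : ∀ a b : ℕ, ¬ p ∣ q ^ a - 1 → ¬ p ∣ q ^ (a + b) - q ^ b := by
    intro a b ha hd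
    rw [pow_add, ← Nat.sub_one_mul] at hd
    rcases hprime.dvd_or_dvd hd with e | e
    · exact ha e
    · exact hpq (hprime.dvd_of_dvd_pow e)
  obtain ⟨R, hR, hRnd⟩ : ∃ R, Nat.card (GL (Fin 7) K) = (q ^ 6 - 1) * R ∧ ¬ p ∣ R := by
    refine ⟨(q ^ 7 - 1) * (q * (q ^ 7 - q ^ 2) * (q ^ 7 - q ^ 3) * (q ^ 7 - q ^ 4) * (q ^ 7 - q ^ 5) *
      (q ^ 7 - q ^ 6)), ?_, ?_⟩
    · rw [Matrix.card_GL_field]
      simp only [Fin.prod_univ_succ, Finset.univ_eq_empty, Finset.prod_empty, Fin.val_zero, Fin.val_succ, mul_one]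
      simp only [zero_add, pow_zero, pow_one]
      norm_num
      rw [show q ^ 7 - q = (q ^ 6 - 1) * q by rw [Nat.sub_one_mul, ← pow_succ]]
      ring
    · intro hd
      have hd1 : ¬ p ∣ q ^ 7 - 1 := h 7 (by simp)
      simp only [hprime.dvd_mul] at hd
      rcases hd with e | ((((e | e) | e) | e) | e) | e
      · exact hd1 e
      · exact hpq e
      · exact h2 5 2 (h 5 (by simp)) e
      · exact h2 4 3 (h 4 (by simp)) e
      · exact h2 3 4 (h 3 (by simp)) e
      · exact h2 2 5 (h 2 (by simp)) e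
      · exact h2 1 6 (by simpa using h 1 (by simp)) e
  obtain ⟨S₀⟩ : Nonempty (Sylow p C) := Sylow.nonempty
  have hidx : ¬ p ∣ C.index := by
    intro hd
    have e := C.card_mul_index
    rw [hR, hcard] at e
    have hpos : 0 < q ^ 6 - 1 := by
      have : 1 < q := Fintype.one_lt_card
      have := Nat.one_lt_pow (show 6 ≠ 0 by omega) this
      omega
    exact hRnd (Nat.eq_of_mul_eq_mul_left hpos e ▸ hd)
  set S' := (S₀ : Subgroup C).map C.subtype
  have hS'p : IsPGroup p S' := S₀.2.map _
  have hS'i : ¬ p ∣ S'.index := by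
    rw [Subgroup.index_map_subtype]
    intro hd
    rcases hprime.dvd_or_dvd hd with e | e
    · exact S₀.not_dvd_index e
    · exact hidx e
  let S : Sylow p (GL (Fin 7) K) := hS'p.toSylow hS'i
  have hScyc : IsCyclic (S : Subgroup (GL (Fin 7) K)) := by
    rw [IsPGroup.toSylow_coe]
    exact isCyclic_of_surjective (Subgroup.equivMapOfInjective (S₀ : Subgroup C) C.subtype C.subtype_injective)
      (MulEquiv.surjective _)
  obtain ⟨T, hT⟩ := hP.exists_le_sylow
  haveI : IsCyclic (T : Subgroup (GL (Fin 7) K)) :=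
    isCyclic_of_surjective (S.equiv T) (MulEquiv.surjective _)
  exact Subgroup.isCyclic_of_le hT

end Cfsg.Agent.H70.ReeMult
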