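import Cfsg.Agent.H70.ReeMult.Rep
import Cfsg.Agent.H70.ReeMult.GLSeven
import Cfsg.Agent.H69.NonsplitTorus
import Cfsg.Agent.H69.SL2Tori
import Cfsg.Agent.H47.SpecialTables

/-!
The Sylow subgroups of the small Ree groups for the primes different from 3.
-/

set_option autoImplicit false

open Cfsg.Lie Cfsg.Agent.H46 Cfsg.Agent.H48.Ree Cfsg.Agent.H70.ReeOut

namespace Cfsg.Agent.H70.ReeMult

variable {K : Type*} [Field K] [Fintype K] {m : ℕ} (hK : Fintype.card K = 3 ^ (2 * m + 1)) (hm : 1 ≤ m)

include hK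

theorem card_G : Nat.card (G K m) =
    (3 ^ (2 * m + 1)) ^ 3 * (3 ^ (2 * m + 1) - 1) * ((3 ^ (2 * m + 1)) ^ 3 + 1) :=
  Cfsg.Agent.H65.Twist.ree_card hK

theorem neg_one_ne : (-1 : K) ≠ 1 := by
  haveI := (field_data hK).1
  intro h
  have h' : ((2 : ℕ) : K) = 0 := by push_cast; linear_combination -h
  rw [CharP.cast_eq_zero_iff K 3] at h'
  omega

theorem not_isSquare_neg_one : ¬ IsSquare (-1 : K) := by
  rw [FiniteField.isSquare_neg_one_iff, hK, Ne, not_not, pow_succ, pow_mul, Nat.mul_mod, Nat.pow_mod]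
  simp

include hm

theorem sl_neg_one [CharP K 3] : sl (m := m) (-1 : Matrix.SpecialLinearGroup (Fin 2) K) = 1 := by
  have e : (-1 : Matrix.SpecialLinearGroup (Fin 2) K) = slD (-1) := by
    apply Subtype.ext
    ext i j
    fin_cases i <;> fin_cases j <;> simp [coe_slD, Matrix.SpecialLinearGroup.coe_neg]
  rw [e, sl_D hK, δ_neg_one hK, map_one]

theorem d_neg_one_commute [CharP K 3] (g : Matrix.SpecialLinearGroup (Fin 2) K) :
    Commute (d hK (-1 : Kˣ)) (sl m g) := by
  have hX : ∀ t : K, Commute (d hK (-1 : Kˣ)) (sl m (slX t)) := fun t => by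
    rw [sl_X]
    have h := d_conj_w hK (-1) (0 : K) t 0
    have ho : Odd (3 * 3 ^ m) := (show Odd 3 by decide).mul ((show Odd 3 by decide).pow)
    rw [Units.val_neg, Units.val_one, mul_zero, mul_zero, ho.add_one.neg_one_pow, one_mul, mul_inv_eq_iff_eq_mul] at h
    exact h
  have hW : Commute (d hK (-1 : Kˣ)) (sl m slW) := by
    obtain ⟨k, hk⟩ := sl_W hK hm
    have hi : (-1 : Kˣ)⁻¹ = -1 := inv_eq_of_mul_eq_one_right (by rw [neg_one_mul, neg_neg])
    have h1 := n_conj_d hK (-1)
    rw [hi, mul_inv_eq_iff_eq_mul] at h1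
    have h2 : Commute (d hK (-1 : Kˣ)) (n hK) := h1.symm
    rw [hk]
    exact h2.mul_right (((Commute.all (-1 : Kˣ) k)).map (d hK))
  have := sl_generated ((Subgroup.centralizer {d hK (-1 : Kˣ)}).comap (sl m))
    (fun t => Subgroup.mem_centralizer_singleton_iff.2 (hX t).eq.symm)
    (Subgroup.mem_centralizer_singleton_iff.2 hW.eq.symm) g
  exact (Subgroup.mem_centralizer_singleton_iff.1 this).symm

theorem d_neg_one_not_mem [CharP K 3] (h : Matrix.SpecialLinearGroup (Fin 2) K) : sl m h ≠ d hK (-1 : Kˣ) := by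
  intro e
  have hc : h.1 1 0 = 0 := by
    by_contra hc
    exact sl_cell_not_mem hK hm h hc (e ▸ T_le_B (d_mem hK _))
  have hdet := sl_det h
  rw [hc, mul_zero, sub_zero] at hdet
  have ha : h.1 0 0 ≠ 0 := fun e' => by simp [e'] at hdet
  have eh : h = slD (Units.mk0 _ ha) * slX (h.1 0 1 / h.1 0 0) := by
    apply Subtype.ext
    ext i j
    fin_cases i <;> fin_cases j <;> simp [sl_mul_val, coe_slX, coe_slD, Matrix.mul_apply, Fin.sum_univ_two, hc, ha]
    · field_simp
    · field_simp; linear_combination hdet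
  rw [eh, map_mul, sl_D hK, sl_X, ← eq_inv_mul_iff_mul_eq, ← map_inv, ← map_mul] at e
  have h1 := eq_one_of_U_T hK (w_mem (m := m) 0 (h.1 0 1 / h.1 0 0) 0) e
  rw [h1, ← map_one (d hK)] at e
  have h2 : δ hK (Units.mk0 _ ha) = -1 := inv_mul_eq_one.1 (d_injective hK e).symm
  have h3 := δ_pow hK (Units.mk0 _ ha)
  have ho : Odd (3 * 3 ^ m) := (show Odd 3 by decide).mul ((show Odd 3 by decide).pow)
  rw [h2, Units.val_neg, Units.val_one, ho.add_one.neg_one_pow, Units.val_mk0] at h3
  have hone : δ hK (1 : Kˣ) = 1 := d_injective hK (by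
    rw [← sl_D hK, map_one, show slD (1 : Kˣ) = 1 from Subtype.ext (by
      ext i j; fin_cases i <;> fin_cases j <;> simp [coe_slD]), map_one])
  rcases sq_eq_one_iff.1 h3.symm with h4 | h4
  · rw [show Units.mk0 _ ha = (1 : Kˣ) from Units.ext h4, hone] at h2
    exact neg_one_ne hK (by simpa using (congrArg Units.val h2).symm)
  · rw [show Units.mk0 _ ha = (-1 : Kˣ) from Units.ext (by simpa using h4), δ_neg_one hK] at h2
    exact neg_one_ne hK (by simpa using (congrArg Units.val h2).symm)

/-- The Sylow 2-subgroups are elementary abelian of order 8. -/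
theorem exists_sylow_two : ∃ P : Sylow 2 (G K m), Nat.card P = 8 ∧ ∀ x ∈ P, x * x = 1 := by
  classical
  haveI := (field_data hK).1
  haveI : Fact (Nat.Prime 2) := ⟨Nat.prime_two⟩
  obtain ⟨a0, b0, hab⟩ := CharP.sq_add_sq K 3 (-1)
  set a : K := (a0 : K)
  set b : K := (b0 : K)
  have hab' : a ^ 2 + b ^ 2 = -1 := by rw [hab]; simp
  have ha : a ≠ 0 := fun e => not_isSquare_neg_one hK ⟨b, by rw [← hab', e]; ring⟩
  have hb : b ≠ 0 := fun e => not_isSquare_neg_one hK ⟨a, by rw [← hab', e]; ring⟩
  let A : Matrix.SpecialLinearGroup (Fin 2) K := ⟨!![a, b; b, -a], by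
    simp [Matrix.det_fin_two]; linear_combination -hab'⟩
  have hA : A.1 = !![a, b; b, -a] := rfl
  set i := d hK (-1 : Kˣ) with hi
  set j := sl m (slW : Matrix.SpecialLinearGroup (Fin 2) K) with hj
  set l := sl m A with hl
  have hii : i * i = 1 := by rw [hi, ← map_mul]; simp
  have hjj : j * j = 1 := by
    rw [hj, ← map_mul, show (slW * slW : Matrix.SpecialLinearGroup (Fin 2) K) = -1 from Subtype.ext (by
      ext r s; fin_cases r <;> fin_cases s <;>
        simp [sl_mul_val, coe_slW, Matrix.mul_apply, Fin.sum_univ_two, Matrix.SpecialLinearGroup.coe_neg]),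
      sl_neg_one hK hm]
  have hll : l * l = 1 := by
    rw [hl, ← map_mul, show (A * A : Matrix.SpecialLinearGroup (Fin 2) K) = -1 from Subtype.ext (by
      ext r s; fin_cases r <;> fin_cases s <;>
        simp [sl_mul_val, hA, Matrix.mul_apply, Fin.sum_univ_two, Matrix.SpecialLinearGroup.coe_neg] <;>
        first | ring1 | linear_combination hab'), sl_neg_one hK hm]
  have hjl : j * l = l * j := by
    have e : (slW * A : Matrix.SpecialLinearGroup (Fin 2) K) = -1 * (A * slW) := Subtype.ext (by
      ext r s; fin_cases r <;> fin_cases s <;>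
        simp [sl_mul_val, coe_slW, hA, Matrix.mul_apply, Fin.sum_univ_two, Matrix.SpecialLinearGroup.coe_neg])
    rw [hj, hl, ← map_mul, e, map_mul, sl_neg_one hK hm, one_mul, map_mul]
  have hij : i * j = j * i := (d_neg_one_commute hK hm _).eq
  have hil : i * l = l * i := (d_neg_one_commute hK hm _).eq
  let E : Subgroup (G K m) := Subgroup.closure {i, j, l}
  have hcent : E ≤ Subgroup.centralizer ({i, j, l} : Set (G K m)) := by
    refine (Subgroup.closure_le _).2 ?_
    rintro x (rfl | rfl | rfl) y (rfl | rfl | rfl) <;>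
      first | rfl | exact hij | exact hij.symm | exact hil | exact hil.symm | exact hjl | exact hjl.symm
  have hcomm : ∀ x ∈ E, ∀ y ∈ E, x * y = y * x := by
    intro x hx
    have h1 : E ≤ Subgroup.centralizer {x} := (Subgroup.closure_le _).2 fun g hg =>
      Subgroup.mem_centralizer_singleton_iff.2 ((Subgroup.mem_centralizer_iff.1 (hcent hx)) g hg)
    exact fun y hy => (Subgroup.mem_centralizer_singleton_iff.1 (h1 hy)).symm
  have hE2 : ∀ x ∈ E, x * x = 1 := by
    intro x hx
    induction hx using Subgroup.closure_induction with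
    | mem x hx => rcases hx with rfl | rfl | rfl <;> assumption
    | one => exact one_mul 1
    | mul x y hx hy h1 h2 =>
      rw [mul_assoc, ← mul_assoc y, hcomm y hy x hx, mul_assoc x, h2, mul_one, h1]
    | inv x hx h1 => rw [← mul_inv_rev, h1, inv_one]
  have hmem : i ∈ E ∧ j ∈ E ∧ l ∈ E :=
    ⟨Subgroup.subset_closure (by simp), Subgroup.subset_closure (by simp), Subgroup.subset_closure (by simp)⟩
  -- eight elements
  have hne : ∀ (h : Matrix.SpecialLinearGroup (Fin 2) K), (h.1 0 1 ≠ 0 ∨ h.1 1 0 ≠ 0) → sl m h ≠ 1 := by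
    intro h hh e
    obtain ⟨h1, h2, -⟩ := sl_eq_one hK hm e
    rcases hh with hh | hh
    · exact hh h2
    · exact hh h1
  have hker : ∀ u v w : Bool, (if u then i else 1) * ((if v then j else 1) * (if w then l else 1)) = 1 →
      u = false ∧ v = false ∧ w = false := by
    intro u v w e
    have hvw : ∃ h : Matrix.SpecialLinearGroup (Fin 2) K,
        sl m h = (if v then j else 1) * (if w then l else 1) ∧ ((v = true ∨ w = true) → h.1 0 1 ≠ 0 ∨ h.1 1 0 ≠ 0) := by
      refine ⟨(if v then slW else 1) * (if w then A else 1), by rw [map_mul]; cases v <;> cases w <;> simp [j, l], ?_⟩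
      intro hor
      cases v <;> cases w
      · exact absurd hor (by decide)
      · left
        simp only [Bool.false_eq_true, if_false, if_true, one_mul, hA]
        simpa using hb
      · left
        simp only [Bool.false_eq_true, if_false, if_true, mul_one, coe_slW]
        simp
      · left
        simp only [if_true, sl_mul_val, coe_slW, hA, Matrix.mul_apply, Fin.sum_univ_two]
        simpa using ha
    obtain ⟨h, hh, hh'⟩ := hvw
    rw [← hh] at e
    cases u with
    | false =>
      simp only [Bool.false_eq_true, if_false, one_mul] at e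
      refine ⟨rfl, ?_⟩
      by_contra hc
      refine hne h (hh' ?_) e
      revert hc
      cases v <;> cases w <;> decide
    | true =>
      simp only [if_true] at e
      exact absurd (eq_inv_of_mul_eq_one_right e |>.trans (inv_eq_of_mul_eq_one_right hii))
        (d_neg_one_not_mem hK hm h)
  let F : Bool × Bool × Bool → E := fun p =>
    ⟨(if p.1 then i else 1) * ((if p.2.1 then j else 1) * (if p.2.2 then l else 1)), by
      refine mul_mem ?_ (mul_mem ?_ ?_) <;> split_ifs <;>
        first | exact one_mem _ | exact hmem.1 | exact hmem.2.1 | exact hmem.2.2⟩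
  have hF : Function.Injective F := by
    rintro ⟨u, v, w⟩ ⟨u', v', w'⟩ e
    have e' := congrArg Subtype.val e
    simp only [F] at e'
    set x := (if u then i else 1) * ((if v then j else 1) * (if w then l else 1)) with hx
    have hx2 : x * x = 1 := hE2 x (F (u, v, w)).2
    -- the product is the value at the symmetric differences
    have hprod : (if (u ^^ u') then i else 1) * ((if (v ^^ v') then j else 1) * (if (w ^^ w') then l else 1)) = 1 := by
      have key : (if u then i else 1) * ((if v then j else 1) * (if w then l else 1)) *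
          ((if u' then i else 1) * ((if v' then j else 1) * (if w' then l else 1))) =
          (if (u ^^ u') then i else 1) * ((if (v ^^ v') then j else 1) * (if (w ^^ w') then l else 1)) := by
        have t : ∀ (g : G K m) (a b : Bool), g * g = 1 →
            (if a then g else 1) * (if b then g else 1) = if (a ^^ b) then g else 1 := by
          intro g a b hg; cases a <;> cases b <;> simp [hg]
        have c : ∀ (g g' : G K m) (a b : Bool), g * g' = g' * g →
            Commute (if a then g else 1) (if b then g' else 1) := by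
          intro g g' a b hg; cases a <;> cases b <;> simp [Commute, SemiconjBy, hg]
        rw [← t i u u' hii, ← t j v v' hjj, ← t l w w' hll]
        rw [((c j i v u' hij.symm).mul_left (c l i w u' hil.symm)).mul_mul_mul_comm,
          (c l j w v' hjl.symm).mul_mul_mul_comm]
      rw [← key, ← e', hx2]
    obtain ⟨h1, h2, h3⟩ := hker _ _ _ hprod
    simp only [bne_eq_false_iff_eq] at h1 h2 h3
    simp [h1, h2, h3]
  have hp2 : IsPGroup 2 E := fun x => ⟨1, Subtype.ext (by
    show (x : G K m) ^ 2 ^ 1 = 1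
    rw [pow_one, pow_two, hE2 x x.2])⟩
  obtain ⟨P, hP⟩ := hp2.exists_le_sylow
  have hcard8 : 8 ≤ Nat.card E := by
    have := Nat.card_le_card_of_injective F hF
    simpa using this
  have hP8 : Nat.card P = 8 := by
    rw [P.card_eq_multiplicity]
    obtain ⟨k, hk, hk2⟩ := exists_half m
    obtain ⟨r, hr, hr4⟩ : ∃ r, Odd r ∧ (3 ^ (2 * m + 1)) ^ 3 + 1 = 4 * r := by
      have h8 : (3 ^ (2 * m + 1)) ^ 3 % 8 = 3 := by
        have h9 : (3 ^ 2) ^ m % 8 = 1 := by rw [Nat.pow_mod]; simp
        rw [pow_succ 3 (2 * m), pow_mul, Nat.pow_mod, Nat.mul_mod, h9]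
      exact ⟨((3 ^ (2 * m + 1)) ^ 3 + 1) / 4, Nat.odd_iff.2 (by omega), by omega⟩
    rw [card_G hK, hk2, hr4]
    have h3 : Odd ((3 ^ (2 * m + 1)) ^ 3) := ((show Odd 3 by decide).pow).pow
    rw [show (3 ^ (2 * m + 1)) ^ 3 * (2 * k) * (4 * r) = 2 ^ 3 * ((3 ^ (2 * m + 1)) ^ 3 * k * r) by ring]
    have hodd : ¬ 2 ∣ (3 ^ (2 * m + 1)) ^ 3 * k * r := Odd.not_two_dvd_nat ((h3.mul hk).mul hr)
    rw [Nat.factorization_mul (by norm_num) (fun e => hodd (by rw [e]; exact dvd_zero 2)), Nat.Prime.factorization_pow Nat.prime_two,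
      Finsupp.add_apply, Finsupp.single_eq_same, Nat.factorization_eq_zero_of_not_dvd hodd]
    norm_num
  have hEP : E = (P : Subgroup (G K m)) := Subgroup.eq_of_le_of_card_ge hP (hP8.le.trans hcard8)
  exact ⟨P, hP8, fun x hx => hE2 x (hEP ▸ hx)⟩

omit hm in
/-- A Sylow subgroup is cyclic if some element has an order divisible by the full prime power. -/
theorem isCyclic_of_element {p : ℕ} [hp : Fact p.Prime] (hp2 : p ≠ 2) {g : G K m} {a b : ℕ}
    (hcard : Nat.card (G K m) = a * b) (hb : ¬ p ∣ b) (hg : a ∣ 2 * orderOf g) (P : Sylow p (G K m)) :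
    IsCyclic P := by
  set C := Subgroup.zpowers g
  have ho : Nat.card C = orderOf g := Nat.card_zpowers g
  have hpos : 0 < Nat.card (G K m) := Nat.card_pos
  have hidx : ¬ p ∣ C.index := by
    intro hd
    obtain ⟨k, hk⟩ := hg
    have e := C.card_mul_index
    rw [ho, hcard] at e
    have ha : 0 < a := Nat.pos_of_ne_zero fun h0 => by rw [hcard, h0, zero_mul] at hpos; omega
    have e2 : a * (k * C.index) = a * (2 * b) := by
      rw [← mul_assoc, ← hk, mul_assoc 2, e]; ring
    have e3 := Nat.eq_of_mul_eq_mul_left ha e2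
    rcases (Nat.Prime.dvd_mul hp.out).1 (e3 ▸ dvd_mul_of_dvd_right hd k) with e4 | e4
    · exact hp2 ((Nat.prime_dvd_prime_iff_eq hp.out Nat.prime_two).1 e4)
    · exact hb e4
  obtain ⟨S₀⟩ : Nonempty (Sylow p C) := Sylow.nonempty
  set S' := (S₀ : Subgroup C).map C.subtype
  have hS'i : ¬ p ∣ S'.index := by
    rw [Subgroup.index_map_subtype]
    intro hd
    rcases (Nat.Prime.dvd_mul hp.out).1 hd with e | e
    · exact S₀.not_dvd_index e
    · exact hidx e
  let S : Sylow p (G K m) := (S₀.2.map C.subtype).toSylow hS'i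
  haveI : IsCyclic (S : Subgroup (G K m)) := by
    rw [IsPGroup.toSylow_coe]
    exact isCyclic_of_surjective (Subgroup.equivMapOfInjective (S₀ : Subgroup C) C.subtype C.subtype_injective)
      (MulEquiv.surjective _)
  exact isCyclic_of_surjective (S.equiv P) (MulEquiv.surjective _)

/-- The Sylow subgroups for the primes above three are cyclic. -/
theorem isCyclic_sylow {p : ℕ} [hp : Fact p.Prime] (hp3 : 3 < p) (P : Sylow p (G K m)) : IsCyclic P := by
  classical
  haveI := (field_data hK).1
  haveI : Fact (Nat.Prime 3) := ⟨Nat.prime_three⟩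
  set q := 3 ^ (2 * m + 1) with hq
  have hq1 : 3 ≤ q := Nat.le_self_pow (by omega) 3
  have hpq : ¬ p ∣ q := fun h =>
    absurd ((Nat.prime_dvd_prime_iff_eq hp.out Nat.prime_three).1 (hp.out.dvd_of_dvd_pow h)) (by omega)
  have hcast : ∀ {x : ℕ}, (p ∣ x) ↔ (x : ZMod p) = 0 := fun {x} => (ZMod.natCast_eq_zero_iff x p).symm
  have hsmall : ∀ k : ℕ, 0 < k → k < p → (k : ZMod p) ≠ 0 := fun k h0 hk e => by
    have := Nat.le_of_dvd h0 (hcast.2 e); omega
  have h2 : (2 : ZMod p) ≠ 0 := by exact_mod_cast hsmall 2 (by omega) (by omega)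
  have h3 : (3 : ZMod p) ≠ 0 := by exact_mod_cast hsmall 3 (by omega) hp3
  set Q : ZMod p := (q : ZMod p) with hQ
  have hsub : ∀ i : ℕ, (p ∣ q ^ i - 1) ↔ Q ^ i = 1 := fun i => by
    rw [hcast, Nat.cast_sub (Nat.one_le_pow _ _ (by omega)), sub_eq_zero]; push_cast; rfl
  have hfact : q ^ 3 + 1 = (q + 1) * (q * (q - 1) + 1) := by
    obtain ⟨r, hr⟩ : ∃ r, q = r + 1 := ⟨q - 1, by omega⟩
    rw [hr, Nat.add_sub_cancel]; ring
  by_cases c1 : p ∣ q - 1
  · obtain ⟨y, hy⟩ := IsCyclic.exists_generator (α := Kˣ)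
    have hQ1 : Q = 1 := by simpa using (hsub 1).1 (by simpa using c1)
    refine isCyclic_of_element hK (by omega) (g := d hK y) (a := q - 1) (b := q ^ 3 * (q ^ 3 + 1))
      (by rw [card_G hK, ← hq]; ring) ?_ ?_ P
    · intro h
      rcases (Nat.Prime.dvd_mul hp.out).1 h with e | e
      · exact hpq (hp.out.dvd_of_dvd_pow e)
      · rw [hcast] at e; push_cast at e; rw [← hQ, hQ1] at e; exact h2 (by linear_combination e)
    · rw [orderOf_injective _ (d_injective hK), orderOf_eq_card_of_forall_mem_zpowers hy, Nat.card_units,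
        Nat.card_eq_fintype_card, hK]
      exact dvd_mul_left _ _
  by_cases c2 : p ∣ q + 1
  · obtain ⟨t, ht⟩ := Cfsg.Agent.H69.exists_rootCount_zero (F := K)
    let g : Matrix.SpecialLinearGroup (Fin 2) K :=
      ⟨Cfsg.Agent.H69.comp2 t 1, Cfsg.Agent.H69.det_comp2 t 1⟩
    have hg : Cfsg.Agent.H69.rootCount (g : Matrix (Fin 2) (Fin 2) K).trace = 0 := by
      rw [show (g : Matrix (Fin 2) (Fin 2) K).trace = t from Cfsg.Agent.H69.trace_comp2 t 1]
      exact ht
    have hC := Cfsg.Agent.H69.isNonsplit_centralizer hg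
    obtain ⟨x, hx⟩ := hC.ns_cyclic.exists_generator
    have hxo : orderOf (x : Matrix.SpecialLinearGroup (Fin 2) K) = q + 1 := by
      rw [Subgroup.orderOf_coe, orderOf_eq_card_of_forall_mem_zpowers hx, hC.ns_card, hK]
    have hQm : Q = -1 := by
      have := hcast.1 c2; push_cast at this; rw [← hQ] at this; linear_combination this
    refine isCyclic_of_element hK (by omega) (g := sl m (x : Matrix.SpecialLinearGroup (Fin 2) K)) (a := q + 1)
      (b := q ^ 3 * (q - 1) * (q * (q - 1) + 1)) (by rw [card_G hK, ← hq, hfact]; ring) ?_ ?_ P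
    · intro h
      rcases (Nat.Prime.dvd_mul hp.out).1 h with e | e
      · rcases (Nat.Prime.dvd_mul hp.out).1 e with e | e
        · exact hpq (hp.out.dvd_of_dvd_pow e)
        · exact c1 e
      · rw [hcast] at e
        push_cast [Nat.cast_sub (show 1 ≤ q by omega)] at e
        rw [← hQ, hQm] at e
        exact h3 (by linear_combination e)
    · rw [← hxo]
      refine orderOf_dvd_of_pow_eq_one ?_
      have h1 : sl m ((x : Matrix.SpecialLinearGroup (Fin 2) K) ^ orderOf (sl m (x : Matrix.SpecialLinearGroup (Fin 2) K))) = 1 := by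
        rw [map_pow, pow_orderOf_eq_one]
      obtain ⟨e1, e2, e3⟩ := sl_eq_one hK hm h1
      rw [mul_comm, pow_mul]
      set z := (x : Matrix.SpecialLinearGroup (Fin 2) K) ^ orderOf (sl m (x : Matrix.SpecialLinearGroup (Fin 2) K))
      have hdet := sl_det z
      rw [e1, e2, mul_zero, sub_zero] at hdet
      apply Subtype.ext
      ext r s
      rw [pow_two, sl_mul_val]
      fin_cases r <;> fin_cases s <;> simp [Matrix.mul_apply, Fin.sum_univ_two, e1, e2]
      · rw [← sq]; exact e3
      · have e4 : z.1 1 1 = z.1 0 0 := by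
          linear_combination (z.1 0 0) * hdet - (z.1 1 1) * e3
        rw [e4, ← sq]; exact e3
  -- the primes dividing only `q² - q + 1`
  by_cases c3 : p ∣ q * (q - 1) + 1
  · let ρ : G K m →* GL (Fin Cfsg.Agent.H47.g2Ideal.length) K :=
      (Cfsg.Agent.H47.idealRep Cfsg.Agent.H47.idealCheck_g2).comp
        (Subgroup.inclusion Cfsg.Agent.H65.Twist.twistedG2_le)
    have hρ : Function.Injective ρ := (Cfsg.Agent.H47.idealRep_injective Cfsg.Agent.H47.idealCheck_g2
      Cfsg.Agent.H47.leftInvCheck_g2).comp (Subgroup.inclusion_injective _)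
    have hz : Q * (Q - 1) + 1 = 0 := by
      have := hcast.1 c3
      push_cast [Nat.cast_sub (show 1 ≤ q by omega)] at this
      exact this
    have hQ3 : Q ^ 3 = -1 := by linear_combination (Q + 1) * hz
    have hi : ∀ i ∈ ({1, 2, 3, 4, 5, 7} : Finset ℕ), ¬ p ∣ Fintype.card K ^ i - 1 := by
      intro i hi h
      rw [hK, hsub] at h
      simp only [Finset.mem_insert, Finset.mem_singleton] at hi
      rcases hi with rfl | rfl | rfl | rfl | rfl | rfl
      · exact (one_ne_zero : (1 : ZMod p) ≠ 0) (by linear_combination hz - Q * h)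
      · exact h3 (by linear_combination (Q + 2) * hz - (Q + 1) * h)
      · exact h2 (by linear_combination hQ3 - h)
      · have hQm : Q = -1 := by linear_combination Q * hQ3 - h
        exact h3 (by linear_combination hz - (Q - 2) * hQm)
      · have hQ2 : Q ^ 2 = -1 := by linear_combination Q ^ 2 * hQ3 - h
        have hQ0 : Q = 0 := by linear_combination hQ2 - hz
        exact (one_ne_zero : (1 : ZMod p) ≠ 0) (by linear_combination hz - (Q - 1) * hQ0)
      · have hQ1 : Q = 1 := by linear_combination h - Q * (Q ^ 3 - 1) * hQ3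
        exact (one_ne_zero : (1 : ZMod p) ≠ 0) (by linear_combination hz - Q * hQ1)
    haveI : IsCyclic ((P : Subgroup (G K m)).map ρ) := isCyclic_of_isPGroup_gl_seven (K := K) 3 (by rw [hK]; exact hpq) hi
      ((P : Subgroup (G K m)).map ρ) (P.2.map ρ)
    exact isCyclic_of_surjective (Subgroup.equivMapOfInjective (P : Subgroup (G K m)) ρ hρ).symm
      (MulEquiv.surjective _)
  · -- the prime does not divide the order
    have hnd : ¬ p ∣ Nat.card (G K m) := by
      rw [card_G hK, ← hq, hfact]
      intro h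
      rcases (Nat.Prime.dvd_mul hp.out).1 h with e | e
      · rcases (Nat.Prime.dvd_mul hp.out).1 e with e | e
        · exact hpq (hp.out.dvd_of_dvd_pow e)
        · exact c1 e
      · rcases (Nat.Prime.dvd_mul hp.out).1 e with e | e
        · exact c2 e
        · exact c3 e
    have : Nat.card P = 1 := by
      rw [P.card_eq_multiplicity, Nat.factorization_eq_zero_of_not_dvd hnd, pow_zero]
    haveI := (Nat.card_eq_one_iff_unique.1 this).1
    infer_instance

end Cfsg.Agent.H70.ReeMult
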