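import Cfsg.Agent.H70.ReeOut.Main
import Cfsg.Agent.H64.StemBasic
import Cfsg.Agent.H64.SzMult.Weight

/-!
The 3-part of the multiplier of a small Ree group: a central extension of the group is split over the
Sylow 3-subgroup as far as commutators go, by torus weights.
-/

set_option autoImplicit false

open Cfsg.Lie Cfsg.Agent.H46 Cfsg.Agent.H48.Ree Cfsg.Agent.H70.ReeOut Cfsg.Agent.H64
open scoped commutatorElement
open Polynomial

namespace Cfsg.Agent.H70.ReeMult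

/-- Some `c` separates the `n`-th power map from an additive map. -/
theorem exists_pow_witness {K : Type*} [Field K] [Fintype K] {n : ℕ} (hn : 0 < n)
    (h : 2 * n + 2 < Fintype.card K) :
    ∃ c : K, c ≠ 0 ∧ 1 + c ≠ 0 ∧ ((1 + c) ^ n)⁻¹ - 1 - (c ^ n)⁻¹ ≠ 0 := by
  let R : K[X] := X ^ n - (1 + X) ^ n * X ^ n - (1 + X) ^ n
  let P : K[X] := X * ((1 + X) * R)
  have hR0 : R.eval 0 = -1 := by simp [R, hn.ne']
  have hR : R ≠ 0 := by intro e; rw [e] at hR0; simp at hR0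
  have hX : (1 + X : K[X]) ≠ 0 := by
    intro e; simpa using congrArg (Polynomial.eval (0 : K)) e
  have hP : P ≠ 0 := mul_ne_zero X_ne_zero (mul_ne_zero hX hR)
  have hd : P.natDegree ≤ 2 * n + 2 := by
    simp only [P, R]
    have h1 : (X : K[X]).natDegree ≤ 1 := natDegree_X_le
    have h2 : (1 + X : K[X]).natDegree ≤ 1 := by compute_degree
    have h3 : ((1 + X) ^ n : K[X]).natDegree ≤ n :=
      natDegree_pow_le.trans (by simpa using Nat.mul_le_mul_left n h2)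
    have h4 : ((X : K[X]) ^ n).natDegree ≤ n := by simp
    refine natDegree_mul_le.trans ((add_le_add h1 (natDegree_mul_le.trans (add_le_add h2
      (?_ : _ ≤ 2 * n)))).trans (by omega))
    refine (natDegree_sub_le _ _).trans (max_le ((natDegree_sub_le _ _).trans (max_le ?_ ?_)) ?_)
    · omega
    · exact natDegree_mul_le.trans (by omega)
    · omega
  obtain ⟨c, hc⟩ : ∃ c : K, P.eval c ≠ 0 := by
    refine P.exists_eval_ne_zero_of_natDegree_lt_card hP (lt_of_le_of_lt (Nat.cast_le.mpr hd) ?_)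
    rw [Cardinal.mk_fintype]
    exact Nat.cast_lt.mpr h
  simp only [P, R, eval_mul, eval_sub, eval_add, eval_X, eval_one, eval_pow, mul_ne_zero_iff] at hc
  obtain ⟨hc0, hc1, hR⟩ := hc
  refine ⟨c, hc0, hc1, fun h => hR ?_⟩
  have hA : c ^ n ≠ 0 := pow_ne_zero _ hc0
  have hB : (1 + c) ^ n ≠ 0 := pow_ne_zero _ hc1
  field_simp at h
  linear_combination h

variable {Γ : Type*} [Group Γ]

theorem bracket_mul_left {x x' y : Γ} (h : Commute x ⁅x', y⁆) : ⁅x * x', y⁆ = ⁅x', y⁆ * ⁅x, y⁆ := by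
  have h1 : ⁅x * x', y⁆ = x * ⁅x', y⁆ * x⁻¹ * ⁅x, y⁆ := by simp only [commutatorElement_def]; group
  rw [h1, h.eq, mul_inv_cancel_right]

theorem bracket_mul_right {x y y' : Γ} (h : Commute y ⁅x, y'⁆) : ⁅x, y * y'⁆ = ⁅x, y⁆ * ⁅x, y'⁆ := by
  have h1 : ⁅x, y * y'⁆ = ⁅x, y⁆ * (y * ⁅x, y'⁆ * y⁻¹) := by simp only [commutatorElement_def]; group
  rw [h1, h.eq, mul_inv_cancel_right]

variable {K : Type*} [Field K] [Fintype K] {m : ℕ} (hK : Fintype.card K = 3 ^ (2 * m + 1))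

include hK in
theorem pow_q_sub_one {c : K} (hc : c ≠ 0) : c ^ (3 * (3 ^ m * 3 ^ m) - 1) = 1 := by
  rw [show 3 * (3 ^ m * 3 ^ m) = Fintype.card K by rw [hK, ← pow_add, ← pow_succ']; congr 1; omega]
  exact FiniteField.pow_card_sub_one_eq_one c hc

include hK in
theorem inv_pow_pow {c : K} (hc : c ≠ 0) : (c⁻¹ ^ (3 * 3 ^ m - 2)) ^ (3 * 3 ^ m + 2) = c := by
  have he : 1 ≤ 3 ^ m := Nat.one_le_pow _ _ (by omega)
  have hq : 1 ≤ 3 ^ m * 3 ^ m := Nat.one_le_iff_ne_zero.2 (by positivity)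
  have key : (3 * 3 ^ m - 2) * (3 * 3 ^ m + 2) + 1 = 3 * (3 * (3 ^ m * 3 ^ m) - 1) := by
    zify [show 2 ≤ 3 * 3 ^ m by omega, show 1 ≤ 3 * (3 ^ m * 3 ^ m) by omega]
    ring
  rw [← pow_mul, inv_pow, inv_eq_of_mul_eq_one_right]
  rw [← pow_succ, key, mul_comm, pow_mul, pow_q_sub_one hK hc, one_pow]

include hK in
theorem pow_pow_eq_sq {c : K} (hc : c ≠ 0) : (c ^ (3 * 3 ^ m - 1)) ^ (3 * 3 ^ m + 1) = c * c := by
  have he : 1 ≤ 3 ^ m := Nat.one_le_pow _ _ (by omega)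
  have hq : 1 ≤ 3 ^ m * 3 ^ m := Nat.one_le_iff_ne_zero.2 (by positivity)
  have key : (3 * 3 ^ m - 1) * (3 * 3 ^ m + 1) = (3 * (3 ^ m * 3 ^ m) - 1) * 3 + 2 := by
    zify [show 1 ≤ 3 * 3 ^ m by omega, show 1 ≤ 3 * (3 ^ m * 3 ^ m) by omega]
    ring
  rw [← pow_mul, key, pow_add, pow_mul, pow_q_sub_one hK hc, one_pow, one_mul, pow_two]

include hK in
/-- The kernel of a central extension of a small Ree group meets the commutator subgroup of the
preimage of a Sylow 3-subgroup trivially. -/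
theorem inf_commutator_eq_bot (hm : 1 ≤ m) {σ : Γ →* G K m} (hσ : Function.Surjective σ)
    (hc : σ.ker ≤ Subgroup.center Γ) :
    σ.ker ⊓ ⁅(U K m).comap σ, (U K m).comap σ⁆ = ⊥ := by
  classical
  haveI := (field_data hK).1
  obtain ⟨hs1, hs2, hs3⟩ := Cfsg.Agent.H70.ReeOut.sizes (K := K) hK hm
  set L := Function.surjInv hσ with hL
  have hσL : ∀ g, σ (L g) = g := Function.surjInv_eq hσ
  have hz : ∀ {z : Γ}, σ z = 1 → ∀ x, Commute z x := fun h x =>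
    (Subgroup.mem_center_iff.mp (hc h) x).symm
  have hcongr : ∀ {x x' y y' : Γ}, σ x = σ x' → σ y = σ y' → ⁅x, y⁆ = ⁅x', y'⁆ := by
    intro x x' y y' hx hy
    obtain ⟨z, rfl⟩ : ∃ z, x = x' * z := ⟨x'⁻¹ * x, by group⟩
    obtain ⟨w', rfl⟩ : ∃ w', y = y' * w' := ⟨y'⁻¹ * y, by group⟩
    have hz1 : σ z = 1 := by rwa [map_mul, mul_eq_left] at hx
    have hw1 : σ w' = 1 := by rwa [map_mul, mul_eq_left] at hy
    rw [bracket_mul_left ((hz (by rw [map_commutatorElement, hz1, commutatorElement_one_left]) x').symm),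
      show ⁅z, y' * w'⁆ = 1 from commutatorElement_eq_one_iff_commute.mpr (hz hz1 _), one_mul,
      bracket_mul_right ((hz (by rw [map_commutatorElement, hw1, commutatorElement_one_right]) y').symm),
      show ⁅x', w'⁆ = 1 from commutatorElement_eq_one_iff_commute.mpr (hz hw1 _).symm, mul_one]
  have hconj : ∀ (d x y : Γ), d * ⁅x, y⁆ * d⁻¹ = ⁅d * x * d⁻¹, d * y * d⁻¹⁆ := fun d x y => by
    simp only [commutatorElement_def]; group
  -- lifts
  set A : K → Γ := fun t => L (w m t 0 0) with hA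
  set B : K → Γ := fun u => L (w m 0 u 0) with hB
  set C : K → Γ := fun v => L (w m 0 0 v) with hC
  set T : Kˣ → Γ := fun x => L (d hK x) with hT
  have hσA : ∀ t, σ (A t) = w m t 0 0 := fun _ => hσL _
  have hσB : ∀ u, σ (B u) = w m 0 u 0 := fun _ => hσL _
  have hσC : ∀ v, σ (C v) = w m 0 0 v := fun _ => hσL _
  have hσT : ∀ x, σ (T x) = d hK x := fun _ => hσL _
  have hθ : 3 * 3 ^ m ≠ 0 := by positivity
  -- the derived layer
  let D₀ : Subgroup (G K m) :=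
    { carrier := {g | ∃ u v, g = w m 0 u v}
      one_mem' := ⟨0, 0, w_zero.symm⟩
      mul_mem' := by
        rintro _ _ ⟨u, v, rfl⟩ ⟨u', v', rfl⟩
        exact ⟨u + u', v + v', by rw [w_mul hK]; simp [hθ]⟩
      inv_mem' := by
        rintro _ ⟨u, v, rfl⟩
        refine ⟨-u, -v, inv_eq_of_mul_eq_one_right ?_⟩
        rw [w_mul hK]; simp [hθ, w_zero] }
  let D : Subgroup Γ := D₀.comap σ
  have hBC : ∀ u v, σ (B u * C v) = w m 0 u v := fun u v => by
    rw [map_mul, hσB, hσC, w_mul hK]; simp [hθ]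
  have hDdec : ∀ x ∈ D, ∃ u v, σ x = σ (B u * C v) := by
    rintro x ⟨u, v, h⟩
    exact ⟨u, v, h.trans (hBC u v).symm⟩
  have hUdec : ∀ x ∈ (U K m).comap σ, ∃ t, ∃ y ∈ D, σ x = σ (y * A t) := by
    intro x hx
    obtain ⟨t, u, v, h⟩ := exists_w hK hx
    refine ⟨t, B u * C (v + t * u), ⟨u, v + t * u, hBC _ _⟩, ?_⟩
    rw [h, map_mul, hBC, hσA, w_mul hK]; simp [hθ]
  have hAadd : ∀ t t', ∃ y ∈ D, σ (A t * A t') = σ (y * A (t + t')) := fun t t' => by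
    obtain ⟨s, y, hy, hs⟩ := hUdec (A t * A t') (by
      rw [Subgroup.mem_comap, map_mul, hσA, hσA]; exact mul_mem (w_mem _ _ _) (w_mem _ _ _))
    refine ⟨y, hy, ?_⟩
    obtain ⟨u, v, hy'⟩ := hy
    have hs' := hs
    rw [map_mul, hσA, hσA, map_mul, hy', hσA, w_mul hK, w_mul hK, w_inj hK] at hs'
    rw [hs, show t + t' = s by simpa using hs'.1]
  have hBadd : ∀ u u', σ (B (u + u')) = σ (B u * B u') := fun u u' => by
    rw [map_mul, hσB, hσB, hσB, w_mul hK]; simp [hθ]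
  have hCadd : ∀ v v', σ (C (v + v')) = σ (C v * C v') := fun v v' => by
    rw [map_mul, hσC, hσC, hσC, w_mul hK]; simp [hθ]
  have hTA : ∀ (x : Kˣ) (t : K), σ (T x * A t * (T x)⁻¹) = σ (A ((x : K) * t)) := fun x t => by
    simp [hσA, hσT, d_conj_w hK]
  have hTB : ∀ (x : Kˣ) (u : K), σ (T x * B u * (T x)⁻¹) = σ (B ((x : K) ^ (3 * 3 ^ m + 1) * u)) :=
    fun x u => by simp [hσB, hσT, d_conj_w hK]
  have hTC : ∀ (x : Kˣ) (v : K), σ (T x * C v * (T x)⁻¹) = σ (C ((x : K) ^ (3 * 3 ^ m + 2) * v)) :=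
    fun x v => by simp [hσC, hσT, d_conj_w hK]
  -- commutators killed by the projection
  have hCCσ : ∀ v v', σ ⁅C v, C v'⁆ = 1 := fun v v' => by
    rw [map_commutatorElement, commutatorElement_eq_one_iff_commute, Commute, SemiconjBy, hσC, hσC,
      w_mul hK, w_mul hK, w_inj hK]
    simp [hθ, add_comm]
  have hCBσ : ∀ v u, σ ⁅C v, B u⁆ = 1 := fun v u => by
    rw [map_commutatorElement, commutatorElement_eq_one_iff_commute, Commute, SemiconjBy, hσC, hσB,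
      w_mul hK, w_mul hK, w_inj hK]
    simp [hθ]
  have hBBσ : ∀ u u', σ ⁅B u, B u'⁆ = 1 := fun u u' => by
    rw [map_commutatorElement, commutatorElement_eq_one_iff_commute, Commute, SemiconjBy, hσB, hσB,
      w_mul hK, w_mul hK, w_inj hK]
    simp [hθ, add_comm]
  have hACσ : ∀ t v, σ ⁅A t, C v⁆ = 1 := fun t v => by
    rw [map_commutatorElement, commutatorElement_eq_one_iff_commute, Commute, SemiconjBy, hσA, hσC,
      w_mul hK, w_mul hK, w_inj hK]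
    simp [hθ]
  have hABσ : ∀ t u, σ ⁅A t, B u⁆ = σ (C (t * u)) := fun t u => by
    rw [map_commutatorElement, hσA, hσB, hσC]
    have h1 : w m 0 0 (t * u) * (w m 0 u 0 * w m t 0 0) = w m t 0 0 * w m 0 u 0 := by
      rw [w_mul hK, w_mul hK, w_mul hK, w_inj hK]; simp [hθ]
    rw [commutatorElement_def, ← h1]; group
  -- witnesses
  have hq : 27 ≤ Fintype.card K := by rw [hs3]; nlinarith
  obtain ⟨c₁, hc₁, hc₁', hD₁⟩ := exists_pow_witness (K := K) one_pos (by omega)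
  obtain ⟨c₂, hc₂, hc₂', hD₂⟩ := exists_pow_witness (K := K) (n := 3 * 3 ^ m + 2) (by omega)
    (by rw [hs3]; nlinarith)
  obtain ⟨c₃, hc₃, hc₃', hD₃⟩ := exists_pow_witness (K := K) (n := 3 * 3 ^ m + 1) (by omega)
    (by rw [hs3]; nlinarith)
  simp only [pow_one] at hD₁
  have htwo : (1 + 1 : K) = -1 := by linear_combination three0 (F := K)
  have hexp : ∀ k : K, k ≠ 0 → ∃ x : Kˣ, (x : K) ^ (3 * 3 ^ m + 2) = k ∧ (x : K) = k⁻¹ ^ (3 * 3 ^ m - 2) :=
    fun k hk => ⟨Units.mk0 _ (pow_ne_zero _ (inv_ne_zero hk)), inv_pow_pow hK hk, rfl⟩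
  -- the top layer
  have hCC : ∀ v v', ⁅C v, C v'⁆ = 1 := by
    refine biadd_invariant_eq_one (fun v v' => ⁅C v, C v'⁆) id ?_ ?_ ?_ (fun x hx => hx) hc₁ hc₁' hD₁
    · intro v v' w'
      show ⁅C (v + v'), C w'⁆ = _
      rw [hcongr (hCadd v v') rfl, bracket_mul_left (hz (hCCσ _ _) _).symm]
      exact hz (hCCσ _ _) _
    · intro v w' w''
      show ⁅C v, C (w' + w'')⁆ = _
      rw [hcongr rfl (hCadd w' w''), bracket_mul_right (hz (hCCσ _ _) _).symm]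
    · intro k hk v v'
      show ⁅C (k * v), C (k * v')⁆ = ⁅C v, C v'⁆
      obtain ⟨x, hx, -⟩ := hexp k hk
      rw [← hx, ← hcongr (hTC x v) (hTC x v'), ← hconj, (hz (hCCσ v v') (T x)).symm.eq,
        mul_inv_cancel_right]
  have hCB : ∀ v u, ⁅C v, B u⁆ = 1 := by
    have hodd : Odd (3 * 3 ^ m) := (show Odd 3 by decide).mul ((show Odd 3 by decide).pow)
    refine biadd_invariant_eq_one (fun v u => ⁅C v, B u⁆)
      (fun k => (k⁻¹ ^ (3 * 3 ^ m - 2)) ^ (3 * 3 ^ m + 1)) ?_ ?_ ?_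
      (fun x hx => pow_ne_zero _ (pow_ne_zero _ (inv_ne_zero hx))) one_ne_zero
      (by rw [htwo]; exact neg_ne_zero.2 one_ne_zero) ?_
    · intro v v' u
      show ⁅C (v + v'), B u⁆ = _
      rw [hcongr (hCadd v v') rfl, bracket_mul_left (hz (hCBσ _ _) _).symm]
      exact hz (hCBσ _ _) _
    · intro v u u'
      show ⁅C v, B (u + u')⁆ = _
      rw [hcongr rfl (hBadd u u'), bracket_mul_right (hz (hCBσ _ _) _).symm]
    · intro k hk v u
      obtain ⟨x, hx, hx'⟩ := hexp k hk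
      show ⁅C (k * v), B ((k⁻¹ ^ (3 * 3 ^ m - 2)) ^ (3 * 3 ^ m + 1) * u)⁆ = ⁅C v, B u⁆
      rw [← hx', ← hcongr ((hTC x v).trans (by rw [hx])) (hTB x u), ← hconj,
        (hz (hCBσ v u) (T x)).symm.eq, mul_inv_cancel_right]
    · show (((1 + 1 : K)⁻¹ ^ (3 * 3 ^ m - 2)) ^ (3 * 3 ^ m + 1))⁻¹ - 1 -
        (((1 : K)⁻¹ ^ (3 * 3 ^ m - 2)) ^ (3 * 3 ^ m + 1))⁻¹ ≠ 0
      rw [htwo, ← pow_mul, inv_neg, inv_one, (hodd.add_one.mul_left _).neg_one_pow, one_pow]
      simp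
  have hDC : ∀ y ∈ D, ∀ v, ⁅y, C v⁆ = 1 := by
    intro y hy v
    obtain ⟨u, v', h⟩ := hDdec y hy
    rw [hcongr h rfl, bracket_mul_left (by rw [hCC]; exact Commute.one_right _), hCC, one_mul,
      ← commutatorElement_inv, hCB, inv_one]
  have hAC : ∀ t v, ⁅A t, C v⁆ = 1 := by
    refine biadd_invariant_eq_one (fun t v => ⁅A t, C v⁆) (fun k => k ^ (3 * 3 ^ m + 2)) ?_ ?_ ?_
      (fun x hx => pow_ne_zero _ hx) hc₂ hc₂' hD₂
    · intro t t' v
      show ⁅A (t + t'), C v⁆ = _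
      obtain ⟨y, hy, h⟩ := hAadd t t'
      have h1 : ⁅A t * A t', C v⁆ = ⁅y * A (t + t'), C v⁆ := hcongr h rfl
      rw [bracket_mul_left (hz (hACσ _ _) _).symm, bracket_mul_left (hz (hACσ _ _) _).symm,
        hDC y hy, mul_one] at h1
      rw [← h1]
      exact hz (hACσ _ _) _
    · intro t v v'
      show ⁅A t, C (v + v')⁆ = _
      rw [hcongr rfl (hCadd v v'), bracket_mul_right (hz (hACσ _ _) _).symm]
    · intro k hk t v
      obtain ⟨x, rfl⟩ : ∃ x : Kˣ, (x : K) = k := ⟨Units.mk0 k hk, rfl⟩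
      show ⁅A ((x : K) * t), C ((x : K) ^ (3 * 3 ^ m + 2) * v)⁆ = ⁅A t, C v⁆
      rw [← hcongr (hTA x t) (hTC x v), ← hconj, (hz (hACσ t v) _).symm.eq, mul_inv_cancel_right]
  -- elements over the centre are central in the preimage
  have hcen : ∀ z v, σ z = σ (C v) → ∀ x ∈ (U K m).comap σ, Commute x z := by
    intro z v h x hx
    obtain ⟨t, y, hy, hxy⟩ := hUdec x hx
    rw [← commutatorElement_eq_one_iff_commute, hcongr hxy h,
      bracket_mul_left (by rw [hAC]; exact Commute.one_right _), hAC, one_mul, hDC y hy]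
  -- the derived layer is abelian
  have hBB : ∀ u u', ⁅B u, B u'⁆ = 1 := by
    have hl : ∀ u u' e, ⁅B (u + u'), B e⁆ = ⁅B u, B e⁆ * ⁅B u', B e⁆ := fun u u' e => by
      rw [hcongr (hBadd u u') rfl, bracket_mul_left (hz (hBBσ _ _) _).symm]
      exact hz (hBBσ _ _) _
    have hr : ∀ u e e', ⁅B u, B (e + e')⁆ = ⁅B u, B e⁆ * ⁅B u, B e'⁆ := fun u e e' => by
      rw [hcongr rfl (hBadd e e'), bracket_mul_right (hz (hBBσ _ _) _).symm]
    have h0l : ∀ e, ⁅B 0, B e⁆ = 1 := fun e => mul_eq_left.mp (by rw [← hl, add_zero] : ⁅B 0, B e⁆ * ⁅B 0, B e⁆ = _)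
    have h0r : ∀ u, ⁅B u, B 0⁆ = 1 := fun e => mul_eq_left.mp (by rw [← hr, add_zero] : ⁅B e, B 0⁆ * ⁅B e, B 0⁆ = _)
    have hneg : ∀ u e, ⁅B (-u), B (-e)⁆ = ⁅B u, B e⁆ := fun u e => by
      have e1 : ⁅B (-u), B (-e)⁆ * ⁅B u, B (-e)⁆ = 1 := by rw [← hl, neg_add_cancel, h0l]
      have e2 : ⁅B u, B e⁆ * ⁅B u, B (-e)⁆ = 1 := by rw [← hr, add_neg_cancel, h0r]
      exact mul_right_cancel (e1.trans e2.symm)
    have hsqr : ∀ k : K, k ≠ 0 → ∀ u e, ⁅B (k * k * u), B (k * k * e)⁆ = ⁅B u, B e⁆ := fun k hk u e => by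
      let x : Kˣ := Units.mk0 _ (pow_ne_zero (3 * 3 ^ m - 1) hk)
      have hx : (x : K) ^ (3 * 3 ^ m + 1) = k * k := pow_pow_eq_sq hK hk
      rw [← hx, ← hcongr (hTB x u) (hTB x e), ← hconj, (hz (hBBσ u e) _).symm.eq, mul_inv_cancel_right]
    refine biadd_invariant_eq_one (fun u u' => ⁅B u, B u'⁆) id hl hr ?_ (fun x hx => hx) hc₁ hc₁' hD₁
    intro k hk u e
    show ⁅B (k * u), B (k * e)⁆ = ⁅B u, B e⁆
    have hns : ¬ IsSquare (-1 : K) := by
      rw [FiniteField.isSquare_neg_one_iff, hK, Ne, not_not, pow_succ, pow_mul, Nat.mul_mod, Nat.pow_mod]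
      simp
    by_cases hsq : IsSquare k
    · obtain ⟨r, rfl⟩ := hsq
      exact hsqr r (left_ne_zero_of_mul hk) u e
    · have hch := quadraticChar_neg_one_iff_not_isSquare.2 hsq
      have hch' := quadraticChar_neg_one_iff_not_isSquare.2 hns
      have h1 : quadraticChar K (-k) = 1 := by
        rw [← neg_one_mul k, map_mul, hch, hch']; norm_num
      obtain ⟨r, hr'⟩ := (quadraticChar_one_iff_isSquare (neg_ne_zero.2 hk)).1 h1
      have hr0 : r ≠ 0 := fun e0 => by simp [e0, hk] at hr'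
      rw [← hneg, ← neg_mul, ← neg_mul, hr']
      exact hsqr r hr0 u e
  have hDD : ∀ y ∈ D, ∀ y' ∈ D, Commute y y' := by
    intro y hy y' hy'
    obtain ⟨u', v', h'⟩ := hDdec y' hy'
    rw [← commutatorElement_eq_one_iff_commute, hcongr rfl h',
      bracket_mul_right (by rw [hDC y hy]; exact Commute.one_right _), hDC y hy, mul_one]
    obtain ⟨u, v, h⟩ := hDdec y hy
    rw [hcongr h rfl, bracket_mul_left (by rw [hCB]; exact Commute.one_right _), hCB, one_mul, hBB]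
  have hDU : D ≤ (U K m).comap σ := by
    rintro y ⟨u, v, h⟩
    rw [Subgroup.mem_comap, h]; exact w_mem _ _ _
  have hcomm : ∀ x ∈ (U K m).comap σ, ∀ y ∈ (U K m).comap σ, ⁅x, y⁆ ∈ D := by
    intro x hx y hy
    obtain ⟨t, u, v, e⟩ := exists_w hK hx
    obtain ⟨t', u', v', e'⟩ := exists_w hK hy
    show σ ⁅x, y⁆ ∈ D₀
    have key : ∀ a u₁ v₁ u₂ v₂, w m a u₁ v₁ * (w m a u₂ v₂)⁻¹ ∈ D₀ := fun a u₁ v₁ u₂ v₂ =>
      ⟨u₁ - u₂, v₁ - v₂ + a * (u₁ - u₂), by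
        rw [mul_inv_eq_iff_eq_mul, w_mul hK, w_inj hK]; simp [hθ]; ring⟩
    rw [map_commutatorElement, e, e', commutatorElement_def,
      show w m t u v * w m t' u' v' * (w m t u v)⁻¹ * (w m t' u' v')⁻¹ =
        w m t u v * w m t' u' v' * (w m t' u' v' * w m t u v)⁻¹ by group, w_mul hK, w_mul hK, add_comm t' t]
    exact key _ _ _ _ _
  letI : CommGroup D :=
    { (inferInstance : Group D) with mul_comm := fun a b => Subtype.ext (hDD a a.2 b b.2).eq }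
  have hAU : ∀ t, A t ∈ (U K m).comap σ := fun t => by
    rw [Subgroup.mem_comap, hσA]; exact w_mem _ _ _
  have hBD : ∀ u, B u ∈ D := fun u => ⟨u, 0, hσB u⟩
  -- the pairing between the first two layers
  let AB : K → K → D := fun t u => ⟨⁅A t, B u⁆, hcomm _ (hAU t) _ (hDU (hBD u))⟩
  have hABc : ∀ t u, ∀ x ∈ (U K m).comap σ, Commute x ⁅A t, B u⁆ := fun t u => hcen _ _ (hABσ t u)
  have hABl : ∀ t t' u, AB (t + t') u = AB t u * AB t' u := by
    intro t t' u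
    obtain ⟨y, hy, h⟩ := hAadd t t'
    have h1 : ⁅A t * A t', B u⁆ = ⁅y * A (t + t'), B u⁆ := hcongr h rfl
    rw [bracket_mul_left (hABc _ _ _ (hAU t)), bracket_mul_left (hABc _ _ _ (hDU hy)),
      show ⁅y, B u⁆ = 1 from commutatorElement_eq_one_iff_commute.2 (hDD y hy _ (hBD u)), mul_one] at h1
    apply Subtype.ext
    show ⁅A (t + t'), B u⁆ = ⁅A t, B u⁆ * ⁅A t', B u⁆
    rw [← h1]
    exact (hABc t u _ (hDU (hcomm _ (hAU t') _ (hDU (hBD u))))).eq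
  have hABr : ∀ t u u', AB t (u + u') = AB t u * AB t u' := fun t u u' => Subtype.ext (by
    show ⁅A t, B (u + u')⁆ = ⁅A t, B u⁆ * ⁅A t, B u'⁆
    rw [hcongr rfl (hBadd u u'), bracket_mul_right (hABc _ _ _ (hDU (hBD u)))])
  -- conjugation by the torus, and its product
  have hTD : ∀ x : Kˣ, ∀ y ∈ D, T x * y * (T x)⁻¹ ∈ D := by
    rintro x y ⟨u, v, h⟩
    show σ _ ∈ D₀
    rw [map_mul, map_mul, map_inv, hσT, h, d_conj_w hK, mul_zero]
    exact ⟨_, _, rfl⟩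
  let cj : Kˣ → (D →* D) := fun x =>
    { toFun := fun y => ⟨T x * y.1 * (T x)⁻¹, hTD x y.1 y.2⟩
      map_one' := Subtype.ext (by simp)
      map_mul' := fun y y' => Subtype.ext (by simp [mul_assoc]) }
  let avg : D →* D := ∏ x : Kˣ, cj x
  -- homomorphisms killing the pairing kill the commutators with the derived layer
  have hkill : ∀ φ : D →* D, (∀ t u, φ (AB t u) = 1) → ∀ x (hx : x ∈ (U K m).comap σ) (y : D),
      φ ⟨⁅x, (y : Γ)⁆, hcomm _ hx _ (hDU y.2)⟩ = 1 := by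
    intro φ hφ x hx y
    obtain ⟨t, z, hzD, hxz⟩ := hUdec x hx
    obtain ⟨u, v, hy⟩ := hDdec y y.2
    convert hφ t u using 2
    apply Subtype.ext
    show ⁅x, (y : Γ)⁆ = ⁅A t, B u⁆
    have h2 : ∀ g ∈ (U K m).comap σ, ⁅g, C v⁆ = 1 := fun g hg =>
      commutatorElement_eq_one_iff_commute.2 (hcen _ v rfl g hg)
    rw [hcongr hxz hy, bracket_mul_right (by rw [h2 _ (mul_mem (hDU hzD) (hAU t))]; exact Commute.one_right _),
      h2 _ (mul_mem (hDU hzD) (hAU t)), mul_one, bracket_mul_left (hABc _ _ _ (hDU hzD)),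
      show ⁅z, B u⁆ = 1 from commutatorElement_eq_one_iff_commute.2 (hDD z hzD _ (hBD u)), mul_one]
  let br : (U K m).comap σ → (U K m).comap σ → D := fun a b => ⟨⁅(a : Γ), (b : Γ)⁆, hcomm _ a.2 _ b.2⟩
  have hbr : ∀ φ : D →* D, (∀ t u, φ (AB t u) = 1) →
      (∀ a a' b, φ (br (a * a') b) = φ (br a b) * φ (br a' b)) ∧
      (∀ a b b', φ (br a (b * b')) = φ (br a b) * φ (br a b')) := by
    intro φ hφ
    constructor
    · intro a a' b
      have h1 : br (a * a') b =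
          ⟨⁅(a : Γ), ((br a' b : D) : Γ)⁆, hcomm _ a.2 _ (hDU (br a' b).2)⟩ * (br a' b * br a b) := by
        apply Subtype.ext
        show ⁅(a : Γ) * a', (b : Γ)⁆ = ⁅(a : Γ), ⁅(a' : Γ), (b : Γ)⁆⁆ * (⁅(a' : Γ), (b : Γ)⁆ * ⁅(a : Γ), (b : Γ)⁆)
        simp only [commutatorElement_def]; group
      rw [h1, map_mul, hkill φ hφ _ a.2, one_mul, map_mul, mul_comm]
    · intro a b b'
      have h1 : br a (b * b') =
          br a b * (⟨⁅(b : Γ), ((br a b' : D) : Γ)⁆, hcomm _ b.2 _ (hDU (br a b').2)⟩ * br a b') := by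
        apply Subtype.ext
        show ⁅(a : Γ), (b : Γ) * b'⁆ = ⁅(a : Γ), (b : Γ)⁆ * (⁅(b : Γ), ⁅(a : Γ), (b' : Γ)⁆⁆ * ⁅(a : Γ), (b' : Γ)⁆)
        simp only [commutatorElement_def]; group
      rw [h1, map_mul, map_mul, hkill φ hφ _ b.2, one_mul]
  -- the values on the first layer
  let AA : K → K → D := fun t t' => br ⟨A t, hAU t⟩ ⟨A t', hAU t'⟩
  have hAA : ∀ φ : D →* D, (∀ t u, φ (AB t u) = 1) →
      (∀ t t' s, φ (AA (t + t') s) = φ (AA t s) * φ (AA t' s)) ∧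
      (∀ s t t', φ (AA s (t + t')) = φ (AA s t) * φ (AA s t')) := by
    intro φ hφ
    obtain ⟨hl, hr⟩ := hbr φ hφ
    have hrD : ∀ a (y : (U K m).comap σ), (y : Γ) ∈ D → φ (br a y) = 1 := fun a y hy =>
      hkill φ hφ _ a.2 ⟨_, hy⟩
    have hlD : ∀ a (y : (U K m).comap σ), (y : Γ) ∈ D → φ (br y a) = 1 := fun a y hy => by
      rw [show br y a = (br a y)⁻¹ from Subtype.ext (commutatorElement_inv _ _).symm, map_inv, hrD a y hy,
        inv_one]
    constructor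
    · intro t t' s
      obtain ⟨y, hy, h⟩ := hAadd t t'
      have h1 : br (⟨A t, hAU t⟩ * ⟨A t', hAU t'⟩) ⟨A s, hAU s⟩ =
          br (⟨y, hDU hy⟩ * ⟨A (t + t'), hAU _⟩) ⟨A s, hAU s⟩ := Subtype.ext (hcongr h rfl)
      have h2 := congrArg φ h1
      rw [hl, hl, hlD _ ⟨y, hDU hy⟩ hy, one_mul] at h2
      exact h2.symm
    · intro s t t'
      obtain ⟨y, hy, h⟩ := hAadd t t'
      have h1 : br ⟨A s, hAU s⟩ (⟨A t, hAU t⟩ * ⟨A t', hAU t'⟩) =
          br ⟨A s, hAU s⟩ (⟨y, hDU hy⟩ * ⟨A (t + t'), hAU _⟩) := Subtype.ext (hcongr rfl h)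
      have h2 := congrArg φ h1
      rw [hr, hr, hrD _ ⟨y, hDU hy⟩ hy, one_mul] at h2
      exact h2.symm
  -- the average kills all commutators
  have hcjAB : ∀ (x : Kˣ) t u, cj x (AB t u) = AB ((x : K) * t) ((x : K) ^ (3 * 3 ^ m + 1) * u) :=
    fun x t u => Subtype.ext (by
      show T x * ⁅A t, B u⁆ * (T x)⁻¹ = ⁅A _, B _⁆
      rw [hconj, hcongr (hTA x t) (hTB x u)])
  have hcjAA : ∀ (x : Kˣ) t t', cj x (AA t t') = AA ((x : K) * t) ((x : K) * t') :=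
    fun x t t' => Subtype.ext (by
      show T x * ⁅A t, A t'⁆ * (T x)⁻¹ = ⁅A _, A _⁆
      rw [hconj, hcongr (hTA x t) (hTA x t')])
  have havgAB : ∀ t u, avg (AB t u) = 1 := by
    refine biadd_invariant_eq_one (fun t u => avg (AB t u)) (fun k => k ^ (3 * 3 ^ m + 1)) ?_ ?_ ?_
      (fun x hx => pow_ne_zero _ hx) hc₃ hc₃' hD₃
    · intro t t' u; simp only [hABl, map_mul]
    · intro t u u'; simp only [hABr, map_mul]
    · intro k hk t u
      show avg (AB (k * t) (k ^ (3 * 3 ^ m + 1) * u)) = avg (AB t u)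
      simp only [avg, MonoidHom.finsetProd_apply, hcjAB]
      refine Fintype.prod_equiv (Equiv.mulRight (Units.mk0 k hk)) _ _ fun j => ?_
      simp [mul_assoc, mul_pow]
  have havgAA : ∀ t t', avg (AA t t') = 1 := by
    refine biadd_invariant_eq_one (fun t t' => avg (AA t t')) id (hAA avg havgAB).1 (hAA avg havgAB).2
      ?_ (fun x hx => hx) hc₁ hc₁' hD₁
    intro k hk t t'
    show avg (AA (k * t) (k * t')) = avg (AA t t')
    simp only [avg, MonoidHom.finsetProd_apply, hcjAA]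
    refine Fintype.prod_equiv (Equiv.mulRight (Units.mk0 k hk)) _ _ fun j => ?_
    simp [mul_assoc]
  -- the cube
  let cube : D →* D := powMonoidHom 3
  have h0 : ∀ {M : Type _} [CommGroup M] (f : K → M), (∀ a b, f (a + b) = f a * f b) → ∀ a, f a ^ 3 = 1 := by
    intro M _ f hf a
    have e : f 0 = 1 := mul_eq_left.mp (by rw [← hf, add_zero] : f 0 * f 0 = f 0)
    rw [pow_succ, pow_two, ← hf, ← hf, show a + a + a = 0 by linear_combination a * three0 (F := K), e]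
  have hcubeAB : ∀ t u, cube (AB t u) = 1 := fun t u =>
    h0 (fun t => AB t u) (fun a b => hABl a b u) t
  have hcubeAA : ∀ t t', cube (AA t t') ^ 3 = 1 := fun t t' =>
    h0 (fun t => cube (AA t t')) (fun a b => (hAA cube hcubeAB).1 a b t') t
  -- every commutator reduces to the first layer
  have hred : ∀ φ : D →* D, (∀ t u, φ (AB t u) = 1) → ∀ a b, ∃ t t', φ (br a b) = φ (AA t t') := by
    intro φ hφ a b
    obtain ⟨hl, hr⟩ := hbr φ hφ
    obtain ⟨t, y, hy, h⟩ := hUdec a a.2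
    obtain ⟨t', y', hy', h'⟩ := hUdec b b.2
    refine ⟨t, t', ?_⟩
    rw [show br a b = br (⟨y, hDU hy⟩ * ⟨A t, hAU t⟩) (⟨y', hDU hy'⟩ * ⟨A t', hAU t'⟩) from
      Subtype.ext (hcongr h h'), hl,
      show br (⟨y, hDU hy⟩ : (U K m).comap σ) (⟨y', hDU hy'⟩ * ⟨A t', hAU t'⟩) =
        (br (⟨y', hDU hy'⟩ * ⟨A t', hAU t'⟩) ⟨y, hDU hy⟩)⁻¹ from Subtype.ext (commutatorElement_inv _ _).symm,
      map_inv, hkill φ hφ _ (⟨y', hDU hy'⟩ * ⟨A t', hAU t'⟩ : (U K m).comap σ).2 ⟨y, hy⟩, inv_one, one_mul, hr,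
      hkill φ hφ _ (hAU t) ⟨y', hy'⟩, one_mul]
  let M : Subgroup D := avg.ker ⊓ (powMonoidHom 9 : D →* D).ker
  have hle : ⁅(U K m).comap σ, (U K m).comap σ⁆ ≤ M.map D.subtype := by
    rw [Subgroup.commutator_le]
    intro x hx y hy
    refine ⟨br ⟨x, hx⟩ ⟨y, hy⟩, ⟨?_, ?_⟩, rfl⟩
    · obtain ⟨t, t', e⟩ := hred avg havgAB ⟨x, hx⟩ ⟨y, hy⟩
      exact e.trans (havgAA t t')
    · obtain ⟨t, t', e⟩ := hred cube hcubeAB ⟨x, hx⟩ ⟨y, hy⟩
      show (br ⟨x, hx⟩ ⟨y, hy⟩ : D) ^ 9 = 1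
      rw [show (9 : ℕ) = 3 * 3 from rfl, pow_mul]
      show cube (br ⟨x, hx⟩ ⟨y, hy⟩) ^ 3 = 1
      rw [e, hcubeAA]
  rw [eq_bot_iff]
  rintro z ⟨hz1, hz2⟩
  obtain ⟨y, ⟨h1, h9⟩, rfl⟩ := hle hz2
  have h1 : avg y = 1 := h1
  have h9 : y ^ 9 = 1 := h9
  have hfix : ∀ x, cj x y = y := fun x => Subtype.ext (by
    show T x * y.1 * (T x)⁻¹ = y.1
    rw [(hz (z := y.1) hz1 (T x)).symm.eq, mul_inv_cancel_right])
  simp only [avg, MonoidHom.finsetProd_apply, hfix, Finset.prod_const, Finset.card_univ] at h1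
  rw [Fintype.card_units, hK] at h1
  have h6 : Nat.Coprime 9 (3 ^ (2 * m + 1) - 1) := by
    have hp : 3 ∣ 3 ^ (2 * m + 1) := dvd_pow_self 3 (by omega)
    have : 1 ≤ 3 ^ (2 * m + 1) := Nat.one_le_pow _ _ (by omega)
    rw [show (9 : ℕ) = 3 ^ 2 from rfl, Nat.coprime_pow_left_iff two_pos, Nat.prime_three.coprime_iff_not_dvd]
    omega
  have hy : y = 1 := orderOf_eq_one_iff.1 (Nat.eq_one_of_dvd_one
    (h6 ▸ Nat.dvd_gcd (orderOf_dvd_of_pow_eq_one h9) (orderOf_dvd_of_pow_eq_one h1)))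
  rw [Subgroup.mem_bot, Subgroup.coe_subtype, hy, Subgroup.coe_one]

include hK in
/-- The multiplier of a small Ree group has order prime to three. -/
theorem not_three_dvd_card_ker [Finite Γ] (hm : 1 ≤ m) {σ : Γ →* G K m} (hσ : Cfsg.IsStemExtension σ) :
    ¬ 3 ∣ Nat.card σ.ker := by
  classical
  haveI : Fact (Nat.Prime 3) := ⟨Nat.prime_three⟩
  obtain ⟨S, hS⟩ := exists_sylow hK
  obtain ⟨P₀⟩ : Nonempty (Sylow 3 Γ) := Sylow.nonempty
  obtain ⟨g, hg⟩ := MulAction.exists_smul_eq (G K m) (P₀.mapSurjective hσ.1) S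
  obtain ⟨g', hg'⟩ := hσ.1 g
  have hle : ((g' • P₀ : Sylow 3 Γ) : Subgroup Γ) ≤ (U K m).comap σ := by
    intro x hx
    rw [Sylow.coe_subgroup_smul] at hx
    obtain ⟨y, hy, rfl⟩ := hx
    rw [Subgroup.mem_comap, ← hS, ← hg, Sylow.coe_subgroup_smul]
    refine ⟨σ y, Subgroup.mem_map_of_mem σ hy, ?_⟩
    simp [hg']
  refine not_dvd_card_ker_of_sylow hσ (g' • P₀) (eq_bot_iff.2 ?_)
  rw [← inf_commutator_eq_bot hK hm hσ.1 hσ.2.1]
  exact inf_le_inf_left _ (Subgroup.commutator_mono hle hle)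

end Cfsg.Agent.H70.ReeMult
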