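import Cfsg.Agent.H70.ReeMult.Two
import Cfsg.Agent.H70.ReeMult.Three
import Cfsg.Agent.H70.ReeMult.Sylows

/-!
The multiplier of a small Ree group is trivial.
-/

set_option autoImplicit false

open Cfsg.Lie Cfsg.Agent.H70.ReeOut

namespace Cfsg.Agent.H70.ReeMult

theorem hasCyclicSchurMultiplier {K : Type*} [Field K] [Fintype K] {m : ℕ}
    (hK : Fintype.card K = 3 ^ (2 * m + 1)) (hm : 1 ≤ m) :
    Cfsg.HasCyclicSchurMultiplier (G K m) 1 := by
  refine Cfsg.Agent.H64.hasCyclicSchurMultiplier_one fun σ hσ r hr => ?_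
  haveI : Fact r.Prime := ⟨hr⟩
  haveI := (Cfsg.Agent.H48.Ree.field_data hK).1
  rcases lt_trichotomy r 3 with h | rfl | h
  · obtain rfl : r = 2 := by have := hr.two_le; omega
    obtain ⟨P, h8, hsq⟩ := exists_sylow_two hK hm
    exact not_two_dvd_card_ker hσ (Cfsg.Agent.H65.Twist.ree_perfect hK hm) P h8 hsq
  · exact not_three_dvd_card_ker hK hm hσ
  · exact Cfsg.Agent.H64.not_dvd_card_ker_of_isCyclic hσ fun Q => isCyclic_sylow hK hm h Q

end Cfsg.Agent.H70.ReeMult
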