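import Cfsg.Agent.H70.ReeOut.Main
import Cfsg.Agent.H46.SL2Hom

/-!
A homomorphism of `SL₂(q)` into the small Ree group along the orthogonal roots `a + b` and `3a + b`.
-/

set_option autoImplicit false

open Cfsg.Lie Cfsg.Agent.H46 Cfsg.Agent.H48.Ree Cfsg.Agent.H70.ReeOut

namespace Cfsg.Agent.H70.ReeMult

variable {K : Type*} [Field K]

theorem slMap_mul {r : ℕ} (hr : r < chevG2.nroots) (g h : Matrix.SpecialLinearGroup (Fin 2) K) :
    goodG2.slMap r (g * h) = goodG2.slMap r g * goodG2.slMap r h := by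
  let S : Subgroup (Matrix.SpecialLinearGroup (Fin 2) K) :=
    { carrier := {k | ∀ g, goodG2.slMap r (g * k) = goodG2.slMap r g * goodG2.slMap r k}
      one_mem' := fun g => by simp [goodG2.slMap_one hr]
      mul_mem' := fun {k k'} hk hk' g => by rw [← mul_assoc, hk', hk, hk' k, mul_assoc]
      inv_mem' := fun {k} hk g => by
        have h1 := hk k⁻¹
        rw [inv_mul_cancel, goodG2.slMap_one hr] at h1
        have h2 := hk (g * k⁻¹)
        rw [inv_mul_cancel_right] at h2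
        rw [h2, eq_inv_of_mul_eq_one_left h1.symm, mul_inv_cancel_right] }
  exact sl_generated S (fun t g => by rw [goodG2.slMap_mul_X, goodG2.slMap_X hr])
    (fun g => by rw [goodG2.slMap_mul_W hr, goodG2.slMap_W]) h g

theorem root_facts :
    (∀ p ∈ [(8, 10), (8, 1), (3, 10), (3, 1)], p.1 < chevG2.nroots ∧ p.2 < chevG2.nroots ∧ p.2 ≠ p.1 ∧
      p.2 ≠ chevG2.neg p.1 ∧ ∀ c ∈ chevG2.commTerms p.1 p.2, c.2.1 % 3 = 0) ∧
    chevG2.neg 8 = 3 ∧ chevG2.neg 10 = 1 ∧
    (∀ s ∈ [6, 7, 8, 9, 10, 11], s < chevG2.nroots ∧ (chevG2.pairing 8 s + chevG2.pairing 10 s) % 2 = 0) := by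
  decide +kernel

variable [CharP K 3]

theorem commute_pairs {r s : ℕ} (h : (r, s) ∈ [(8, 10), (8, 1), (3, 10), (3, 1)]) (t u : K) :
    Commute (goodG2.xg r t) (goodG2.xg s u) := by
  obtain ⟨hr, hs, hne, hn, hc⟩ := root_facts.1 _ h
  exact Cfsg.Agent.H65.xg_commute goodG2 hr hs hne hn
    (fun c hc' => (CharP.intCast_eq_zero_iff K 3 _).2 (Int.dvd_of_emod_eq_zero (by exact_mod_cast hc c hc'))) t u

theorem slMap_commute (g h : Matrix.SpecialLinearGroup (Fin 2) K) :
    Commute (goodG2.slMap 8 g) (goodG2.slMap 10 h) := by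
  let f8 : Matrix.SpecialLinearGroup (Fin 2) K →* GL chevG2.Idx K :=
    MonoidHom.mk' (goodG2.slMap 8) (slMap_mul (by decide +kernel))
  let f10 : Matrix.SpecialLinearGroup (Fin 2) K →* GL chevG2.Idx K :=
    MonoidHom.mk' (goodG2.slMap 10) (slMap_mul (by decide +kernel))
  have h8 : ∀ t, f8 (slX t) = goodG2.xg 8 t := fun t => goodG2.slMap_X (by decide +kernel) t
  have h3 : ∀ t, f8 (slY t) = goodG2.xg 3 t := fun t => by
    show goodG2.slMap 8 (slY t) = _
    rw [goodG2.slMap_Y (by decide +kernel), root_facts.2.1]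
  have h10 : ∀ t, f10 (slX t) = goodG2.xg 10 t := fun t => goodG2.slMap_X (by decide +kernel) t
  have h1 : ∀ t, f10 (slY t) = goodG2.xg 1 t := fun t => by
    show goodG2.slMap 10 (slY t) = _
    rw [goodG2.slMap_Y (by decide +kernel), root_facts.2.2.1]
  have gen : ∀ (S : Subgroup (Matrix.SpecialLinearGroup (Fin 2) K)), (∀ t, slX t ∈ S) → (∀ t, slY t ∈ S) →
      ∀ g, g ∈ S := fun S hX hY g => sl_generated S hX (by
    have e : (slW : Matrix.SpecialLinearGroup (Fin 2) K) = slX 1 * slY (-1) * slX 1 := by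
      apply Subtype.ext
      ext i j
      fin_cases i <;> fin_cases j <;>
        simp [sl_mul_val, coe_slX, coe_slY, coe_slW, Matrix.mul_apply, Fin.sum_univ_two]
    rw [e]; exact mul_mem (mul_mem (hX _) (hY _)) (hX _)) g
  have hB : ∀ (x : GL chevG2.Idx K), (∀ t, Commute x (goodG2.xg 10 t)) → (∀ t, Commute x (goodG2.xg 1 t)) →
      ∀ h, Commute x (f10 h) := fun x ha hb h => by
    have := gen ((Subgroup.centralizer {x}).comap f10)
      (fun t => Subgroup.mem_comap.2 (Subgroup.mem_centralizer_singleton_iff.2 (by rw [h10]; exact (ha t).symm.eq)))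
      (fun t => Subgroup.mem_comap.2 (Subgroup.mem_centralizer_singleton_iff.2 (by rw [h1]; exact (hb t).symm.eq))) h
    exact (Subgroup.mem_centralizer_singleton_iff.1 (Subgroup.mem_comap.1 this)).symm
  have hA := gen ((Subgroup.centralizer {f10 h}).comap f8)
    (fun t => Subgroup.mem_comap.2 (Subgroup.mem_centralizer_singleton_iff.2 (by
      rw [h8]; exact (hB _ (commute_pairs (by simp) t) (commute_pairs (by simp) t) h).eq)))
    (fun t => Subgroup.mem_comap.2 (Subgroup.mem_centralizer_singleton_iff.2 (by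
      rw [h3]; exact (hB _ (commute_pairs (by simp) t) (commute_pairs (by simp) t) h).eq))) g
  exact Subgroup.mem_centralizer_singleton_iff.1 (Subgroup.mem_comap.1 hA)

/-- The diagonal elements of `SL₂`. -/
def slD (y : Kˣ) : Matrix.SpecialLinearGroup (Fin 2) K :=
  ⟨!![(y : K), 0; 0, (y : K)⁻¹], by simp [Matrix.det_fin_two]⟩

theorem coe_slD (y : Kˣ) : (slD y).1 = !![(y : K), 0; 0, (y : K)⁻¹] := rfl

/-- The homomorphism into the general linear group. -/
noncomputable def slG (m : ℕ) : Matrix.SpecialLinearGroup (Fin 2) K →* GL chevG2.Idx K :=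
  MonoidHom.mk' (fun g => goodG2.slMap 8 (Matrix.SpecialLinearGroup.map (iterateFrobenius K 3 m) g) *
    goodG2.slMap 10 g) fun g h => by
      rw [map_mul, slMap_mul (by decide +kernel), slMap_mul (by decide +kernel)]
      exact (slMap_commute _ _).mul_mul_mul_comm _ _

variable {m : ℕ}

theorem slG_X (t : K) : slG m (slX t) = W (3 ^ m) 0 t 0 := by
  have hm0 : 3 ^ m ≠ 0 := pow_ne_zero _ (by omega)
  show goodG2.slMap 8 _ * goodG2.slMap 10 _ = _
  rw [show Matrix.SpecialLinearGroup.map (iterateFrobenius K 3 m) (slX t) = slX (t ^ 3 ^ m) by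
      apply Subtype.ext; ext i j
      fin_cases i <;> fin_cases j <;> simp [coe_slX, iterateFrobenius_def, hm0],
    goodG2.slMap_X (by decide +kernel), goodG2.slMap_X (by decide +kernel)]
  simp [W, Cfsg.Agent.H48.Ree.P, goodG2.xg_zero, zero_pow hm0]

theorem slG_Y (t : K) : slG m (slY t) = goodG2.xg 3 (t ^ 3 ^ m) * goodG2.xg 1 t := by
  have hm0 : 3 ^ m ≠ 0 := pow_ne_zero _ (by omega)
  show goodG2.slMap 8 _ * goodG2.slMap 10 _ = _
  rw [show Matrix.SpecialLinearGroup.map (iterateFrobenius K 3 m) (slY t) = slY (t ^ 3 ^ m) by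
      apply Subtype.ext; ext i j
      fin_cases i <;> fin_cases j <;> simp [coe_slY, iterateFrobenius_def, hm0],
    goodG2.slMap_Y (by decide +kernel), goodG2.slMap_Y (by decide +kernel), root_facts.2.1, root_facts.2.2.1]

theorem slG_Y_mem (t : K) : slG m (slY t) ∈ Gr K m := by
  have hm0 : 3 ^ m ≠ 0 := pow_ne_zero _ (by omega)
  refine Subgroup.subset_closure ⟨reeWordV (3 ^ m) 0 (-t) 0, ⟨0, -t, 0, Or.inr rfl⟩, ?_⟩
  have hn : ∀ r ∈ [(7, 4), (6, 5), (8, 3), (9, 2), (10, 1), (11, 0)],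
      chevG2.negIdx[r.1]?.getD 0 = r.2 := by decide +kernel
  have ho : Odd (3 ^ m) := (show Odd 3 by decide).pow
  simp only [List.forall_mem_cons, List.not_mem_nil, false_imp_iff, implies_true, and_true,
    List.getD_eq_getElem?_getD] at hn
  obtain ⟨h7, h6, h8, h9, h10, h11⟩ := hn
  rw [slG_Y]
  simp [reeWordV, reeWordU, ChevalleyDatum.negWord, g2a, g2b, g2ab, g2aab, g2aaab, g2aaabb, List.getD_eq_getElem?_getD, h7, h6, h8, h9, h10, h11,
    ChevalleyDatum.wordMat, Units.val_mul, goodG2.coe_xg, goodG2.x_zero', zero_pow hm0, ho.neg_pow]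

theorem slG_mem (g : Matrix.SpecialLinearGroup (Fin 2) K) : slG m g ∈ Gr K m := by
  have hX : ∀ t, slG m (slX t) ∈ Gr K m := fun t => by rw [slG_X]; exact W_mem_twisted _ _ _ _
  refine sl_generated ((Gr K m).comap (slG m)) hX ?_ g
  have e : (slW : Matrix.SpecialLinearGroup (Fin 2) K) = slX 1 * slY (-1) * slX 1 := by
    apply Subtype.ext
    ext i j
    fin_cases i <;> fin_cases j <;>
      simp [sl_mul_val, coe_slX, coe_slY, coe_slW, Matrix.mul_apply, Fin.sum_univ_two]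
  rw [Subgroup.mem_comap, e, map_mul, map_mul]
  exact mul_mem (mul_mem (hX _) (slG_Y_mem _)) (hX _)

/-- The homomorphism into the Ree group. -/
noncomputable def sl (m : ℕ) : Matrix.SpecialLinearGroup (Fin 2) K →* G K m :=
  (slG m).codRestrict _ slG_mem

theorem sl_X (t : K) : sl m (slX t) = w m 0 t 0 := Subtype.ext (slG_X t)

theorem slG_D (y : Kˣ) : slG m (slD y) = goodG2.hg 8 ((y : K) ^ 3 ^ m) * goodG2.hg 10 (y : K) := by
  have e : Matrix.SpecialLinearGroup.map (iterateFrobenius K 3 m) (slD y) = slD (y ^ 3 ^ m) := by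
    apply Subtype.ext; ext i j
    show iterateFrobenius K 3 m ((slD y).1 i j) = (slD (y ^ 3 ^ m)).1 i j
    fin_cases i <;> fin_cases j <;> simp [coe_slD, iterateFrobenius_def]
  have h : ∀ r y, goodG2.slMap r (slD y : Matrix.SpecialLinearGroup (Fin 2) K) = goodG2.hg r (y : K) := fun r y => by
    rw [goodG2.slMap_pos (by simp [coe_slD])]
    simp [coe_slD, goodG2.xg_zero]
  show goodG2.slMap 8 _ * goodG2.slMap 10 _ = _
  rw [e, h, h, Units.val_pow_eq_pow_val]

variable [Fintype K] (hK : Fintype.card K = 3 ^ (2 * m + 1)) (hm : 1 ≤ m)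

include hK

theorem sl_D_mem (y : Kˣ) : sl m (slD y) ∈ T K m := by
  refine Subgroup.mem_subgroupOf.2 (Subgroup.mem_inf.2 ⟨?_, (sl m (slD y)).2⟩)
  show slG m (slD y) ∈ _
  rw [slG_D]
  exact mul_mem (goodG2.hg_mem_diagonal (by decide +kernel) (pow_ne_zero _ y.ne_zero))
    (goodG2.hg_mem_diagonal (by decide +kernel) y.ne_zero)

/-- The torus parameter of a diagonal element. -/
noncomputable def δ (y : Kˣ) : Kˣ := ((mem_T hK).1 (sl_D_mem hK y)).choose

theorem sl_D (y : Kˣ) : sl m (slD y) = d hK (δ hK y) := ((mem_T hK).1 (sl_D_mem hK y)).choose_spec.symm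

theorem δ_pow (y : Kˣ) : (δ hK y : K) ^ (3 * 3 ^ m + 1) = (y : K) ^ 2 := by
  have e : slD y * slX 1 * (slD y)⁻¹ = slX ((y : K) ^ 2) := by
    rw [mul_inv_eq_iff_eq_mul]
    apply Subtype.ext
    ext i j
    rw [sl_mul_val, sl_mul_val, coe_slX, coe_slX]
    fin_cases i <;> fin_cases j <;>
      simp [coe_slD, Matrix.mul_apply, Fin.sum_univ_two, sq, mul_assoc]
  have h := congrArg (sl m) e
  rw [map_mul, map_mul, map_inv, sl_D hK, sl_X, sl_X, d_conj_w, w_inj hK] at h
  simpa using h.2.1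

theorem δ_neg_one : δ hK (-1) = 1 := by
  have hp : ∀ s ∈ [6, 7, 8, 9, 10, 11], ∀ t : K, Commute (sl m (slD (-1 : Kˣ)) : GL chevG2.Idx K) (goodG2.xg s t) := by
    intro s hs t
    obtain ⟨hs', hev⟩ := root_facts.2.2.2 s hs
    show Commute (slG m (slD (-1 : Kˣ))) _
    rw [slG_D, Units.val_neg, Units.val_one, ((show Odd 3 by decide).pow).neg_one_pow]
    show _ = _
    rw [mul_assoc, goodG2.hg_mul_xg (by decide +kernel) hs' (neg_ne_zero.2 one_ne_zero), ← mul_assoc,
      goodG2.hg_mul_xg (by decide +kernel) hs' (neg_ne_zero.2 one_ne_zero), mul_assoc]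
    congr 2
    rw [← mul_assoc, ← zpow_add₀ (neg_ne_zero.2 one_ne_zero),
      (show Even (chevG2.pairing 8 s + chevG2.pairing 10 s) from Int.even_iff.2 hev).neg_one_zpow, one_mul]
  have hc : Commute (sl m (slD (-1 : Kˣ))) (w m (1 : K) 0 0) := by
    apply Subtype.ext
    exact ((((((hp 7 (by simp) _).mul_right (hp 6 (by simp) _)).mul_right (hp 8 (by simp) _)).mul_right
      (hp 9 (by simp) _)).mul_right (hp 10 (by simp) _)).mul_right (hp 11 (by simp) _)).eq
  rw [sl_D hK] at hc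
  have h := d_conj_w hK (δ hK (-1)) (1 : K) 0 0
  rw [hc.eq, mul_inv_cancel_right, w_inj hK] at h
  exact Units.ext (by simpa using h.1.symm)

theorem sl_W_not_mem : sl m (slW : Matrix.SpecialLinearGroup (Fin 2) K) ∉ B K m := by
  intro h
  have hmem := conj_mem_U h (show sl m (slX (-1 : K)) ∈ U K m by rw [sl_X]; exact w_mem _ _ _)
  rw [← map_inv, ← map_mul, ← map_mul, ← slY_eq] at hmem
  obtain ⟨hm1, -⟩ := Subgroup.mem_inf.1 (Subgroup.mem_subgroupOf.1 hmem)
  have hneg : ((sl m (slY (1 : K)) : G K m) : GL chevG2.Idx K) ∈ chevG2.negUnipotent K := by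
    show slG m (slY 1) ∈ _
    rw [slG_Y]
    exact mul_mem (goodG2.xg_mem_neg (goodG2.isNegRoot_iff.2 (by decide +kernel)) _)
      (goodG2.xg_mem_neg (goodG2.isNegRoot_iff.2 (by decide +kernel)) _)
  have h1 : sl m (slY (1 : K)) = 1 := Subtype.ext ((Subgroup.eq_bot_iff_forall _).1 (goodG2.borel_inf_neg (F := K)) _
    (Subgroup.mem_inf.2 ⟨Subgroup.mem_sup_left hm1, hneg⟩))
  rw [slY_eq, map_mul, map_mul, map_inv, conj_eq_one_iff, sl_X, ← w_zero, w_inj hK] at h1
  simpa using h1.2.1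

include hm

theorem sl_W : ∃ k, sl m (slW : Matrix.SpecialLinearGroup (Fin 2) K) = n hK * d hK k := by
  rcases decomp' hK (sl m (slW : Matrix.SpecialLinearGroup (Fin 2) K)) with h | ⟨a, ha, k, c, hc, e⟩
  · exact absurd h (sl_W_not_mem hK)
  obtain ⟨y, hy⟩ := IsCyclic.exists_generator (α := Kˣ)
  have ecomm : (slW : Matrix.SpecialLinearGroup (Fin 2) K) * slD y = slD y⁻¹ * slW := by
    apply Subtype.ext
    ext i j
    fin_cases i <;> fin_cases j <;> simp [sl_mul_val, coe_slW, coe_slD, Matrix.mul_apply, Fin.sum_univ_two]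
  have hδ : δ hK y⁻¹ = (δ hK y)⁻¹ := by
    apply d_injective hK
    rw [map_inv, ← sl_D hK, ← sl_D hK, ← map_inv]
    congr 1
    refine eq_inv_of_mul_eq_one_left (Subtype.ext ?_)
    ext i j
    fin_cases i <;> fin_cases j <;> simp [sl_mul_val, coe_slD, Matrix.mul_apply, Fin.sum_univ_two]
  have h2 := congrArg (sl m) ecomm
  rw [map_mul, map_mul, sl_D hK, sl_D hK, hδ, e] at h2
  set x := δ hK y with hx
  have e2 : a * (n hK * d hK (k * x)) * ((d hK x)⁻¹ * c * d hK x) =
      (d hK x⁻¹ * a * (d hK x⁻¹)⁻¹) * (n hK * d hK (x * k)) * c := by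
    calc a * (n hK * d hK (k * x)) * ((d hK x)⁻¹ * c * d hK x) = a * (n hK * d hK k) * c * d hK x := by
          rw [map_mul]; group
      _ = d hK x⁻¹ * (a * (n hK * d hK k) * c) := h2
      _ = d hK x⁻¹ * a * (d hK x⁻¹)⁻¹ * (d hK x⁻¹ * n hK) * d hK k * c := by group
      _ = _ := by
          rw [show d hK x⁻¹ * n hK = n hK * d hK x by
            rw [← n_conj_d hK x, inv_mul_cancel_right], map_mul]
          group
  have hcU : (d hK x)⁻¹ * c * d hK x ∈ U K m := by
    simpa using conj_mem_U (inv_mem (T_le_B (d_mem hK x))) hc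
  obtain ⟨e3, -, e4⟩ := cell_unique hK ha hcU (conj_mem_U (T_le_B (d_mem hK _)) ha) hc e2
  -- `x` acts without fixed points
  have hfree : ∀ g ∈ U K m, d hK x * g * (d hK x)⁻¹ = g → g = 1 := by
    intro g hg hfix
    obtain ⟨t, u, v, rfl⟩ := exists_w hK hg
    rw [d_conj_w, w_inj hK] at hfix
    have hy2 : (x : K) ^ (3 * 3 ^ m + 1) ≠ 1 := by
      rw [hx, δ_pow hK]; exact pow_ne_one_of_gen hK hm hy two_pos (by omega)
    have hx1 : (x : K) ≠ 1 := fun e1 => hy2 (by rw [e1, one_pow])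
    have hb : (x : K) ^ (3 * 3 ^ m + 2) ≠ 1 := by
      intro hb
      have hb' : x ^ (3 * 3 ^ m + 2) = 1 := Units.ext (by simpa using hb)
      have ho : Odd (orderOf (x ^ 2)) := by
        obtain ⟨j, hj, hj2⟩ := exists_half m
        refine hj.of_dvd_nat (orderOf_dvd_of_pow_eq_one ?_)
        rw [← pow_mul, ← hj2, ← hK, ← Nat.card_eq_fintype_card, ← Nat.card_units]
        exact pow_card_eq_one'
      have h2 : x ^ 2 = 1 :=
        (param_fixed_free (field_data hK).2 ho).2 (by rw [← pow_mul, mul_comm, pow_mul, hb', one_pow])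
      have h2' : (x : K) ^ 2 = 1 := by rw [← Units.val_pow_eq_pow_val, h2, Units.val_one]
      obtain ⟨j, hj⟩ : Even (3 * 3 ^ m + 1) := ((show Odd 3 by decide).mul ((show Odd 3 by decide).pow)).add_one
      exact hy2 (by rw [hj, ← two_mul, pow_mul, h2', one_pow])
    have z : ∀ {r s : K}, r ≠ 1 → r * s = s → s = 0 := fun {r s} hr hrs => by
      by_contra hne
      exact hr (mul_right_cancel₀ hne (hrs.trans (one_mul s).symm))
    rw [z hx1 hfix.1, z hy2 hfix.2.1, z hb hfix.2.2, w_zero]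
  have ha1 : a = 1 := hfree a ha (by
    rw [map_inv, inv_inv, mul_assoc, eq_inv_mul_iff_mul_eq] at e3
    rw [mul_inv_eq_iff_eq_mul]; exact e3)
  have hc1 : c = 1 := hfree c hc (by
    rw [mul_assoc, inv_mul_eq_iff_eq_mul] at e4
    rw [mul_inv_eq_iff_eq_mul]; exact e4.symm)
  exact ⟨k, by rw [e, ha1, hc1, one_mul, mul_one]⟩

omit hm in
/-- The factorisation of an element outside the triangular group. -/
theorem sl_factor (g : Matrix.SpecialLinearGroup (Fin 2) K) (hc : g.1 1 0 ≠ 0) :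
    g = slX (g.1 0 0 / g.1 1 0) * slW * slD (-(Units.mk0 _ hc)) * slX (g.1 1 1 / g.1 1 0) := by
  have hdet := sl_det g
  apply Subtype.ext
  ext i j
  fin_cases i <;> fin_cases j <;>
    simp [sl_mul_val, coe_slX, coe_slW, coe_slD, Matrix.mul_apply, Fin.sum_univ_two] <;> field_simp
  linear_combination -hdet

theorem sl_cell (g : Matrix.SpecialLinearGroup (Fin 2) K) (hc : g.1 1 0 ≠ 0) :
    ∃ k, sl m g = w m 0 (g.1 0 0 / g.1 1 0) 0 * (n hK * d hK k) * w m 0 (g.1 1 1 / g.1 1 0) 0 := by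
  obtain ⟨k, hk⟩ := sl_W hK hm
  refine ⟨k * δ hK (-(Units.mk0 _ hc)), ?_⟩
  conv_lhs => rw [sl_factor hK g hc]
  rw [map_mul, map_mul, map_mul, sl_X, sl_X, sl_D hK, hk, map_mul]
  group

theorem sl_cell_not_mem (g : Matrix.SpecialLinearGroup (Fin 2) K) (hc : g.1 1 0 ≠ 0) : sl m g ∉ B K m := by
  obtain ⟨k, hk⟩ := sl_cell hK hm g hc
  intro h
  rw [hk] at h
  have h1 := mul_mem (mul_mem (inv_mem (U_le_B (w_mem (m := m) 0 (g.1 0 0 / g.1 1 0) 0))) h)
    (inv_mem (U_le_B (w_mem (m := m) 0 (g.1 1 1 / g.1 1 0) 0)))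
  have h2 : n hK * d hK k ∈ B K m := by
    convert h1 using 1
    group
  have h3 := mul_mem h2 (inv_mem (T_le_B (d_mem hK k)))
  rw [mul_inv_cancel_right] at h3
  exact nW_not_borel hK (Subgroup.mem_subgroupOf.1 h3)

/-- The kernel consists of the scalar matrices. -/
theorem sl_eq_one {g : Matrix.SpecialLinearGroup (Fin 2) K} (h : sl m g = 1) :
    g.1 1 0 = 0 ∧ g.1 0 1 = 0 ∧ g.1 0 0 ^ 2 = 1 := by
  have hc : g.1 1 0 = 0 := by
    by_contra hc
    exact sl_cell_not_mem hK hm g hc (by rw [h]; exact one_mem _)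
  have hdet := sl_det g
  rw [hc, mul_zero, sub_zero] at hdet
  have ha : g.1 0 0 ≠ 0 := fun e => by simp [e] at hdet
  have e : g = slD (Units.mk0 _ ha) * slX (g.1 0 1 / g.1 0 0) := by
    apply Subtype.ext
    ext i j
    fin_cases i <;> fin_cases j <;> simp [sl_mul_val, coe_slX, coe_slD, Matrix.mul_apply, Fin.sum_univ_two, hc, ha]
    · field_simp
    · field_simp; linear_combination hdet
  have h' := h
  rw [e, map_mul, sl_D hK, sl_X, mul_eq_one_iff_inv_eq, ← map_inv] at h'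
  have h1 := eq_one_of_U_T hK (w_mem (m := m) 0 (g.1 0 1 / g.1 0 0) 0) h'.symm
  rw [← w_zero, w_inj hK] at h1
  have h2 := h
  rw [e, map_mul, sl_D hK, sl_X, show w m (0 : K) (g.1 0 1 / g.1 0 0) 0 = 1 by rw [h1.2.1, w_zero], mul_one,
    ← map_one (d hK)] at h2
  have h3 := δ_pow hK (Units.mk0 _ ha)
  rw [d_injective hK h2, Units.val_one, one_pow, Units.val_mk0] at h3
  exact ⟨hc, (div_eq_zero_iff.1 h1.2.1).resolve_right ha, h3.symm⟩

end Cfsg.Agent.H70.ReeMult
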