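import Cfsg.Agent.H64.StemBasic

/-!
A perfect group whose Sylow 2-subgroups are elementary abelian of order 8 has multiplier of odd order.
-/

set_option autoImplicit false

namespace Cfsg.Agent.H70.ReeMult

open scoped commutatorElement

/-- A non-zero alternating sign pairing on an elementary group of order 8 has a radical of order 2. -/
theorem radical_fixed {V : Type*} [CommGroup V] (h8 : Nat.card V = 8) (hsq : ∀ x : V, x * x = 1)
    {A : Type*} [CommGroup A] {ε : A} (hε : ε ≠ 1) (f : V → V → A)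
    (hl : ∀ x x' y, f (x * x') y = f x y * f x' y) (hs : ∀ x y, f x y = f y x) (ha : ∀ x, f x x = 1)
    (hv : ∀ x y, f x y = 1 ∨ f x y = ε) {a b : V} (hab : f a b ≠ 1) :
    ∃ c : V, c ≠ 1 ∧ (∀ y, f c y = 1) ∧ ∀ x, (∀ y, f x y = 1) → x ≠ 1 → x = c := by
  classical
  haveI : Finite V := Nat.finite_of_card_ne_zero (by omega)
  haveI := Fintype.ofFinite V
  have hr : ∀ x y y', f x (y * y') = f x y * f x y' := fun x y y' => by rw [hs, hl, hs y, hs y']
  have h1 : ∀ x, f x 1 = 1 := fun x => mul_eq_left.1 (by rw [← hr, one_mul] : f x 1 * f x 1 = f x 1)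
  have hab' : f a b = ε := (hv a b).resolve_left hab
  have hε2 : ε * ε = 1 := by rw [← hab', ← hl, hsq, hs, h1]
  let P0 : Set V := {x | f a x = 1 ∧ f b x = 1}
  let h : V → Bool × Bool := fun x => (decide (f a x = 1), decide (f b x = 1))
  have hh : ∀ x y, h x = h y → x * y ∈ P0 := by
    intro x y e
    simp only [h, Prod.mk.injEq, decide_eq_decide] at e
    constructor <;> rw [hr]
    · rcases hv a x with e1 | e1 <;> rcases hv a y with e2 | e2 <;> simp_all
    · rcases hv b x with e1 | e1 <;> rcases hv b y with e2 | e2 <;> simp_all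
  obtain ⟨x, y, hxy, e⟩ := Fintype.exists_ne_map_eq_of_card_lt h (by
    rw [← Nat.card_eq_fintype_card (α := V), h8]; decide)
  set c := x * y with hc
  have hcP : c ∈ P0 := hh x y e
  have hc1 : c ≠ 1 := fun e1 => hxy (mul_right_cancel (e1.trans (hsq y).symm))
  -- every element is an element of `P0` times a power of `a` and `b`
  have hdec : ∀ z : V, ∃ i j : ℕ, z * a ^ i * b ^ j ∈ P0 := by
    intro z
    have hab2 : f b a = ε := by rw [hs, hab']
    rcases hv a z with e1 | e1 <;> rcases hv b z with e2 | e2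
    · exact ⟨0, 0, by simp [P0, e1, e2]⟩
    · exact ⟨1, 0, by simp [P0, hr, e1, e2, ha, hab2, hε2]⟩
    · exact ⟨0, 1, by simp [P0, hr, e1, e2, ha, hab', hε2]⟩
    · exact ⟨1, 1, by simp [P0, hr, e1, e2, ha, hab', hab2, hε2]⟩
  have hP0 : ∀ z ∈ P0, z = 1 ∨ z = c := by
    intro z hz
    by_contra hne
    push Not at hne
    let F : Fin 3 × Bool × Bool → V := fun p =>
      ![1, c, z] p.1 * (if p.2.1 then a else 1) * (if p.2.2 then b else 1)
    have hF : Function.Injective F := by
      rintro ⟨k, i, j⟩ ⟨k', i', j'⟩ e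
      have hk : ∀ k : Fin 3, ![1, c, z] k ∈ P0 := by
        intro k; fin_cases k
        · exact ⟨h1 a, h1 b⟩
        · exact hcP
        · exact hz
      have ea := congrArg (f a) e
      have eb := congrArg (f b) e
      simp only [F, hr, (hk k).1, (hk k').1, (hk k).2, (hk k').2, apply_ite (f a), apply_ite (f b), ha, h1,
        hab', show f b a = ε by rw [hs, hab'], one_mul, ite_self, mul_one] at ea eb
      have hij : i = i' ∧ j = j' := by
        constructor
        · cases i <;> cases i' <;> simp_all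
        · cases j <;> cases j' <;> simp_all
      obtain ⟨rfl, rfl⟩ := hij
      have e' := mul_right_cancel (mul_right_cancel e)
      fin_cases k <;> fin_cases k' <;> simp_all <;> first
        | exact absurd e' hc1 | exact absurd e'.symm hc1
    have := Fintype.card_le_of_injective F hF
    rw [← Nat.card_eq_fintype_card (α := V), h8] at this
    simp at this
  refine ⟨c, hc1, fun z => ?_, fun z hz hz1 => ?_⟩
  · obtain ⟨i, j, hij⟩ := hdec z
    have hp : ∀ (u : V) (k : ℕ), f c u = 1 → f c (u ^ k) = 1 := by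
      intro u k hu
      induction k with
      | zero => rw [pow_zero, h1]
      | succ k ih => rw [pow_succ, hr, ih, hu, one_mul]
    have hca : f c a = 1 := by rw [hs]; exact hcP.1
    have hcb : f c b = 1 := by rw [hs]; exact hcP.2
    have e : f c (z * a ^ i * b ^ j) = 1 := by
      rcases hP0 _ hij with e1 | e1 <;> rw [e1]
      · exact h1 c
      · exact ha c
    rwa [hr, hr, hp a i hca, hp b j hcb, mul_one, mul_one] at e
  · exact (hP0 z ⟨by rw [hs]; exact hz a, by rw [hs]; exact hz b⟩).resolve_left hz1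

theorem comm_mul_left {Γ : Type*} [Group Γ] {x x' y : Γ} (h : ⁅x', y⁆ ∈ Subgroup.center Γ) :
    ⁅x * x', y⁆ = ⁅x, y⁆ * ⁅x', y⁆ := by
  rw [show ⁅x * x', y⁆ = x * ⁅x', y⁆ * x⁻¹ * ⁅x, y⁆ by simp only [commutatorElement_def]; group,
    Subgroup.mem_center_iff.1 h x, mul_inv_cancel_right, ← Subgroup.mem_center_iff.1 h ⁅x, y⁆]

/-- The criterion. -/
theorem not_two_dvd_card_ker {Γ G : Type*} [Group Γ] [Finite Γ] [Group G] [Finite G] {σ : Γ →* G}
    (hσ : Cfsg.IsStemExtension σ) (hperf : commutator G = ⊤) (P : Sylow 2 G) (h8 : Nat.card P = 8)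
    (hsq : ∀ x ∈ P, x * x = 1) : ¬ 2 ∣ Nat.card σ.ker := by
  classical
  haveI : Fact (Nat.Prime 2) := ⟨Nat.prime_two⟩
  obtain ⟨hsurj, hcent, -⟩ := id hσ
  -- the Sylow subgroup is abelian
  letI : CommGroup P :=
    { (inferInstance : Group P) with
      mul_comm := fun x y => by
        have h : ∀ z : P, z⁻¹ = z := fun z => inv_eq_of_mul_eq_one_right (Subtype.ext (hsq z z.2))
        calc x * y = (x * y)⁻¹ := (h _).symm
          _ = y * x := by rw [mul_inv_rev, h, h] }
  haveI : IsMulCommutative (P : Subgroup G) := ⟨⟨fun x y => mul_comm (x : P) y⟩⟩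
  -- no non-trivial element of it is fixed by its normaliser
  have hfix : ∀ c ∈ P, (∀ n ∈ Subgroup.normalizer (P : Set G), n⁻¹ * c * n = c) → c = 1 := by
    intro c hc hn
    have key : ∀ (k : ℕ) (g₀ : G), g₀⁻¹ * c ^ k * g₀ ∈ (P : Subgroup G) → g₀⁻¹ * c ^ k * g₀ = c ^ k := by
      intro k g₀ hk
      obtain ⟨n, hn', e⟩ := P.conj_eq_normalizer_conj_of_mem (c ^ k) g₀ (pow_mem hc k) hk
      rw [e]
      have := congrArg (· ^ k) (hn n hn')
      simpa [show n⁻¹ * c * n = n⁻¹ * c * (n⁻¹)⁻¹ by rw [inv_inv], conj_pow] using this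
    have h1 : MonoidHom.transfer (MonoidHom.id ↥(P : Subgroup G)) c = 1 := by
      have hc' : c ∈ commutator G := hperf ▸ Subgroup.mem_top c
      exact Abelianization.commutator_subset_ker (MonoidHom.transfer (MonoidHom.id ↥(P : Subgroup G))) hc'
    rw [MonoidHom.transfer_eq_pow _ c key] at h1
    have h2 : c ^ (P : Subgroup G).index = 1 := congrArg Subtype.val h1
    obtain ⟨j, hj⟩ : Odd (P : Subgroup G).index := Nat.odd_iff.2 (Nat.two_dvd_ne_zero.1 P.not_dvd_index)
    rw [hj, pow_succ, pow_mul, pow_two, hsq c hc, one_pow, one_mul] at h2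
    exact h2
  -- the commutators in the preimage
  set L := Function.surjInv hsurj with hL
  have hσL : ∀ g, σ (L g) = g := Function.surjInv_eq hsurj
  have hmem : ∀ x y : P, ⁅L x, L y⁆ ∈ σ.ker := fun x y => by
    rw [MonoidHom.mem_ker, map_commutatorElement, hσL, hσL, commutatorElement_eq_one_iff_commute]
    exact congrArg Subtype.val (mul_comm x y)
  have hcongr : ∀ {u u' v v' : Γ}, σ u = σ u' → σ v = σ v' → ⁅u, v⁆ = ⁅u', v'⁆ := by
    intro u u' v v' h1 h2
    obtain ⟨z, hz, rfl⟩ : ∃ z, z ∈ Subgroup.center Γ ∧ u = u' * z :=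
      ⟨u'⁻¹ * u, hcent (by rw [MonoidHom.mem_ker, map_mul, map_inv, h1, inv_mul_cancel]), by group⟩
    obtain ⟨w, hw, rfl⟩ : ∃ w, w ∈ Subgroup.center Γ ∧ v = v' * w :=
      ⟨v'⁻¹ * v, hcent (by rw [MonoidHom.mem_ker, map_mul, map_inv, h2, inv_mul_cancel]), by group⟩
    have hL1 : ∀ {t z g : Γ}, z ∈ Subgroup.center Γ → ⁅t * z, g⁆ = ⁅t, g⁆ := fun {t z g} hz => by
      have e : ⁅z, g⁆ = 1 := commutatorElement_eq_one_iff_commute.2 (Subgroup.mem_center_iff.1 hz g).symm
      rw [comm_mul_left (by rw [e]; exact one_mem _), e, mul_one]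
    rw [hL1 hz, ← commutatorElement_inv (v' * w) u', hL1 hw, commutatorElement_inv]
  obtain ⟨Q, hQ⟩ := Sylow.mapSurjective_surjective hsurj 2 P
  refine Cfsg.Agent.H64.not_dvd_card_ker_of_sylow hσ Q ?_
  suffices hone : ∀ x y : P, ⁅L x, L y⁆ = 1 by
    have hbot : ⁅(Q : Subgroup Γ), (Q : Subgroup Γ)⁆ = ⊥ := by
      rw [Subgroup.commutator_eq_bot_iff_le_centralizer]
      intro u hu
      rw [Subgroup.mem_centralizer_iff]
      intro v hv
      have hP : ∀ w ∈ (Q : Subgroup Γ), σ w ∈ P := fun w hw => by rw [← hQ]; exact ⟨w, hw, rfl⟩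
      have e := hone ⟨σ v, hP v hv⟩ ⟨σ u, hP u hu⟩
      rw [hcongr (hσL _) (hσL _)] at e
      exact commutatorElement_eq_one_iff_commute.1 e
    rw [hbot, inf_bot_eq]
  intro a b
  by_contra hab
  letI : CommGroup σ.ker :=
    { (inferInstance : Group σ.ker) with
      mul_comm := fun u v => Subtype.ext (Subgroup.mem_center_iff.1 (hcent v.2) u.1) }
  let β : P → P → σ.ker := fun x y => ⟨⁅L x, L y⁆, hmem x y⟩
  obtain ⟨χ, hχ⟩ := CommGroup.exists_apply_ne_one_of_hasEnoughRootsOfUnity σ.ker ℂ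
    (a := β a b) (fun e => hab (congrArg Subtype.val e))
  let f : P → P → ℂˣ := fun x y => χ (β x y)
  have hl : ∀ x x' y, f (x * x') y = f x y * f x' y := fun x x' y => by
    simp only [f, ← map_mul]
    congr 1
    apply Subtype.ext
    show ⁅L ((x * x' : P) : G), L y⁆ = ⁅L x, L y⁆ * ⁅L x', L y⁆
    rw [← comm_mul_left (hcent (hmem x' y))]
    exact hcongr (by rw [map_mul, hσL, hσL, hσL]; rfl) rfl
  have ha : ∀ x, f x x = 1 := fun x => by
    simp only [f]; rw [show β x x = 1 from Subtype.ext (commutatorElement_self _), map_one]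
  have h1l : ∀ y, f 1 y = 1 := fun y => mul_eq_left.1 (by rw [← hl, one_mul] : f 1 y * f 1 y = f 1 y)
  have hsq' : ∀ x y, f x y * f x y = 1 := fun x y => by
    rw [← hl, show x * x = 1 from Subtype.ext (hsq x x.2), h1l]
  have hs : ∀ x y, f x y = f y x := fun x y => by
    have e : f y x = (f x y)⁻¹ := by
      simp only [f, ← map_inv]
      exact congrArg χ (Subtype.ext (commutatorElement_inv _ _).symm)
    rw [e]; exact eq_inv_of_mul_eq_one_left (hsq' x y)
  have hv : ∀ x y, f x y = 1 ∨ f x y = -1 := fun x y => by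
    have e : ((f x y : ℂˣ) : ℂ) ^ 2 = 1 := by rw [sq, ← Units.val_mul, hsq' x y, Units.val_one]
    rcases sq_eq_one_iff.1 e with e | e
    · exact Or.inl (Units.ext e)
    · exact Or.inr (Units.ext (by simpa using e))
  obtain ⟨c, hc1, hcR, hcU⟩ := radical_fixed h8 (fun x => Subtype.ext (hsq x x.2)) (ε := (-1 : ℂˣ))
    (fun e => by have := congrArg Units.val e; norm_num at this) f hl hs ha hv
    (a := a) (b := b) hχ
  refine hc1 (Subtype.ext (hfix c c.2 fun n hn => ?_))
  have hconj : ∀ y : P, n⁻¹ * (y : G) * n ∈ P := fun y => by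
    exact (Subgroup.mem_set_normalizer_iff''.1 hn _).1 y.2
  have hconj' : ∀ y : P, n * (y : G) * n⁻¹ ∈ P := fun y => by
    exact (Subgroup.mem_set_normalizer_iff.1 hn _).1 y.2
  have hfc : ∀ y, f ⟨_, hconj c⟩ y = 1 := by
    intro y
    rw [← hcR ⟨_, hconj' y⟩]
    simp only [f]
    congr 1
    apply Subtype.ext
    show ⁅L (n⁻¹ * (c : G) * n), L y⁆ = ⁅L c, L (n * (y : G) * n⁻¹)⁆
    have hz := Subgroup.mem_center_iff.1 (hcent (hmem c ⟨_, hconj' y⟩))
    calc ⁅L (n⁻¹ * (c : G) * n), L y⁆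
        = ⁅(L n)⁻¹ * L c * L n, (L n)⁻¹ * L (n * (y : G) * n⁻¹) * L n⁆ :=
          hcongr (by simp only [map_mul, map_inv, hσL]) (by simp only [map_mul, map_inv, hσL]; group)
      _ = (L n)⁻¹ * ⁅L c, L (n * (y : G) * n⁻¹)⁆ * L n := by simp only [commutatorElement_def]; group
      _ = _ := by rw [mul_assoc, ← hz (L n), inv_mul_cancel_left]
  exact congrArg Subtype.val (hcU ⟨_, hconj c⟩ hfc (fun e => hc1 (Subtype.ext (by
    have e' : n⁻¹ * (c : G) * n = 1 := congrArg Subtype.val e
    calc (c : G) = n * (n⁻¹ * (c : G) * n) * n⁻¹ := by group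
      _ = 1 := by rw [e']; group))))

end Cfsg.Agent.H70.ReeMult
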